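import Mathlib

/-! Frame stabilisers, piece P6: no sharply 2-subset-transitive set of permutations of small support. -/

set_option autoImplicit false

namespace H73.FrComb

theorem comb {ι : Type*} [Fintype ι] [DecidableEq ι]
    (hN : Fintype.card ι = 5 ∨ Fintype.card ι = 7 ∨ 8 ≤ Fintype.card ι) (S : Set (Equiv.Perm ι)) (h1 : 1 ∈ S)
    (hS : ∀ P Q : Finset ι, P.card = 2 → Q.card = 2 → ∃! σ, σ ∈ S ∧ P.map σ.toEmbedding = Q)
    (ho : ∀ σ ∈ S, Odd (orderOf σ)) (hc : ∀ σ ∈ S, σ.support.card ≤ σ.cycleType.card + 4) : False := by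
  classical
  set N := Fintype.card ι with hNdef
  -- the possible supports
  have key : ∀ σ ∈ S, σ ≠ 1 → (σ.support.card = 3 ∨ σ.support.card = 5 ∨ σ.support.card = 6) := by
    intro σ hσ hσ1
    have hodd : ∀ n ∈ σ.cycleType, Odd n := by
      intro n hn
      exact Odd.of_dvd_nat (ho σ hσ) (Equiv.Perm.dvd_of_mem_cycleType hn)
    have h3 : ∀ n ∈ σ.cycleType, 3 ≤ n := by
      intro n hn
      have h2 := Equiv.Perm.two_le_of_mem_cycleType hn
      obtain ⟨k, hk⟩ := hodd n hn
      omega
    have hle := Multiset.card_nsmul_le_sum h3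
    rw [Equiv.Perm.sum_cycleType, smul_eq_mul] at hle
    have hc' := hc σ hσ
    have hc0 : σ.cycleType.card ≠ 0 := by
      rw [Ne, Equiv.Perm.card_cycleType_eq_zero]; exact hσ1
    have hcle : σ.cycleType.card = 1 ∨ σ.cycleType.card = 2 := by omega
    rcases hcle with h | h
    · obtain ⟨n, hn⟩ := Multiset.card_eq_one.mp h
      have hs : σ.support.card = n := by
        rw [← Equiv.Perm.sum_cycleType, hn, Multiset.sum_singleton]
      have ho' := hodd n (by rw [hn]; exact Multiset.mem_singleton_self n)
      obtain ⟨k, hk⟩ := ho'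
      omega
    · omega
  have hfix : ∀ σ ∈ S, ∀ a b, a ≠ b → σ a = a → σ b = b → σ = 1 := by
    intro σ hσ a b hab ha hb
    have hP : ({a, b} : Finset ι).card = 2 := Finset.card_pair hab
    obtain ⟨τ, _, hτ⟩ := hS {a, b} {a, b} hP hP
    have e1 : σ = τ := hτ σ ⟨hσ, by
      rw [Finset.map_insert, Finset.map_singleton]
      simp only [Equiv.coe_toEmbedding, ha, hb]⟩
    have e2 : (1 : Equiv.Perm ι) = τ := hτ 1 ⟨h1, by
      rw [Finset.map_insert, Finset.map_singleton]
      simp only [Equiv.coe_toEmbedding, Equiv.Perm.coe_one, id_eq]⟩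
    rw [e1, e2]
  -- number of fixed points
  have hcount : ∀ σ : Equiv.Perm ι, (Finset.univ.filter (fun i => σ i = i)).card + σ.support.card = N := by
    intro σ
    have h := Finset.card_filter_add_card_filter_not (s := (Finset.univ : Finset ι)) (fun i => σ i = i)
    rw [Finset.card_univ] at h
    have h2 : σ.support = Finset.univ.filter (fun i => ¬ σ i = i) := by
      ext x
      rw [Equiv.Perm.mem_support, Finset.mem_filter]
      simp
    rw [h2]
    exact h
  have htwo : ∀ σ ∈ S, 2 ≤ (Finset.univ.filter (fun i => σ i = i)).card → σ = 1 := by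
    intro σ hσ h
    obtain ⟨a, ha, b, hb, hab⟩ := Finset.one_lt_card.mp h
    exact hfix σ hσ a b hab (Finset.mem_filter.mp ha).2 (Finset.mem_filter.mp hb).2
  -- the finite set
  set T : Finset (Equiv.Perm ι) := Finset.univ.filter (fun σ => σ ∈ S) with hT
  have hTS : ∀ σ, σ ∈ T ↔ σ ∈ S := by intro σ; rw [hT, Finset.mem_filter]; simp
  have hN5 : 5 ≤ N := by omega
  obtain ⟨a, b, hab⟩ : ∃ a b : ι, a ≠ b := by
    have : 1 < Fintype.card ι := by omega
    exact Fintype.exists_pair_of_one_lt_card this
  have hTcard : T.card = N.choose 2 := by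
    have hP : ({a, b} : Finset ι).card = 2 := Finset.card_pair hab
    have h2 : (Finset.powersetCard 2 (Finset.univ : Finset ι)).card = N.choose 2 := by
      rw [Finset.card_powersetCard, Finset.card_univ]
    rw [← h2]
    refine Finset.card_bij (fun σ _ => ({a, b} : Finset ι).map σ.toEmbedding) ?_ ?_ ?_
    · intro σ _
      rw [Finset.mem_powersetCard]
      exact ⟨Finset.subset_univ _, by rw [Finset.card_map, hP]⟩
    · intro σ hσ τ hτ h
      obtain ⟨ρ, _, hρ⟩ := hS {a, b} (({a, b} : Finset ι).map σ.toEmbedding) hP (by rw [Finset.card_map, hP])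
      rw [hρ σ ⟨(hTS σ).mp hσ, rfl⟩, hρ τ ⟨(hTS τ).mp hτ, h.symm⟩]
    · intro Q hQ
      rw [Finset.mem_powersetCard] at hQ
      obtain ⟨ρ, ⟨hρ1, hρ2⟩, _⟩ := hS {a, b} Q hP hQ.2
      exact ⟨ρ, (hTS ρ).mpr hρ1, hρ2⟩
  rcases hN with hN | hN | hN
  rotate_left 2
  · -- N ≥ 8
    have hall : ∀ σ ∈ S, σ = 1 := by
      intro σ hσ
      by_contra hne
      have h1 := key σ hσ hne
      have h2 := hcount σ
      exact hne (htwo σ hσ (by omega))
    have hT1 : T.card ≤ 1 := by
      rw [Finset.card_le_one]
      intro x hx y hy
      rw [hall x ((hTS x).mp hx), hall y ((hTS y).mp hy)]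
    rw [hTcard] at hT1
    have : (8 : ℕ).choose 2 ≤ N.choose 2 := Nat.choose_le_choose 2 hN
    have h8 : (8 : ℕ).choose 2 = 28 := by decide
    omega
  all_goals
    -- the count at a point
    have hpt : ∀ i : ι, (N - 1) * (N - 1) =
        (N - 1) * (T.filter (fun σ => σ i = i)).card + (T.filter (fun σ => ¬ σ i = i)).card := by
      intro i
      set E : Finset ι := Finset.univ.erase i with hE
      have hEc : E.card = N - 1 := by rw [hE, Finset.card_erase_of_mem (Finset.mem_univ i), Finset.card_univ]
      have hmE : ∀ j, j ∈ E ↔ j ≠ i := by intro j; rw [hE]; simp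
      -- double count
      have hdc : ∑ σ ∈ T, ((E ×ˢ E).filter (fun q => ({i, q.1} : Finset ι).map σ.toEmbedding = {i, q.2})).card =
          (E ×ˢ E).card := by
        have h1 : ∑ q ∈ E ×ˢ E, (T.filter (fun σ : Equiv.Perm ι =>
            ({i, q.1} : Finset ι).map σ.toEmbedding = {i, q.2})).card = (E ×ˢ E).card := by
          rw [Finset.card_eq_sum_ones]
          apply Finset.sum_congr rfl
          rintro ⟨j, k⟩ hq
          rw [Finset.mem_product] at hq
          have hj := (hmE j).mp hq.1
          have hk := (hmE k).mp hq.2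
          obtain ⟨ρ, ⟨hρ1, hρ2⟩, hρ3⟩ := hS {i, j} {i, k} (Finset.card_pair hj.symm) (Finset.card_pair hk.symm)
          rw [Finset.card_eq_one]
          refine ⟨ρ, ?_⟩
          ext σ
          rw [Finset.mem_filter, Finset.mem_singleton, hTS]
          exact ⟨fun h => hρ3 σ h, fun h => by rw [h]; exact ⟨hρ1, hρ2⟩⟩
        rw [← h1]
        simp only [Finset.card_filter]
        exact Finset.sum_comm
      rw [Finset.card_product, hEc] at hdc
      rw [← hdc, ← Finset.sum_filter_add_sum_filter_not T (fun σ => σ i = i)]
      congr 1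
      · rw [mul_comm, ← smul_eq_mul, ← Finset.sum_const]
        apply Finset.sum_congr rfl
        intro σ hσ
        have hi : σ i = i := (Finset.mem_filter.mp hσ).2
        rw [← hEc]
        apply Finset.card_bij (fun q _ => q.1)
        · rintro ⟨j, k⟩ hq
          rw [Finset.mem_filter, Finset.mem_product] at hq
          exact hq.1.1
        · rintro ⟨j, k⟩ hq ⟨j', k'⟩ hq' h
          rw [Finset.mem_filter, Finset.mem_product] at hq hq'
          have hjj : j = j' := h
          subst hjj
          have h2 : ({i, k} : Finset ι) = {i, k'} := hq.2.symm.trans hq'.2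
          have h3 : k ∈ ({i, k'} : Finset ι) := by rw [← h2]; simp
          rw [Finset.mem_insert, Finset.mem_singleton] at h3
          rcases h3 with h3 | h3
          · exact absurd h3 ((hmE k).mp hq.1.2)
          · rw [h3]
        · intro j hj
          have hji := (hmE j).mp hj
          refine ⟨(j, σ j), ?_, rfl⟩
          rw [Finset.mem_filter, Finset.mem_product]
          refine ⟨⟨hj, (hmE _).mpr ?_⟩, ?_⟩
          · intro h
            apply hji
            apply σ.injective
            rw [hi]; exact h
          · rw [Finset.map_insert, Finset.map_singleton]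
            simp only [Equiv.coe_toEmbedding, hi]
      · rw [Finset.card_eq_sum_ones]
        apply Finset.sum_congr rfl
        intro σ hσ
        have hi : σ i ≠ i := (Finset.mem_filter.mp hσ).2
        rw [Finset.card_eq_one]
        refine ⟨(σ.symm i, σ i), ?_⟩
        ext ⟨j, k⟩
        rw [Finset.mem_filter, Finset.mem_product, Finset.mem_singleton, Finset.map_insert, Finset.map_singleton]
        simp only [Equiv.coe_toEmbedding, Prod.mk.injEq]
        constructor
        · rintro ⟨⟨hj, hk⟩, h⟩
          have hj := (hmE j).mp hj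
          have hk := (hmE k).mp hk
          have h3 : i ∈ ({σ i, σ j} : Finset ι) := by rw [h]; simp
          rw [Finset.mem_insert, Finset.mem_singleton] at h3
          rcases h3 with h3 | h3
          · exact absurd h3.symm hi
          · have h4 : σ i ∈ ({i, k} : Finset ι) := by rw [← h]; simp
            rw [Finset.mem_insert, Finset.mem_singleton] at h4
            rcases h4 with h4 | h4
            · exact absurd h4 hi
            · exact ⟨by rw [h3]; simp, h4.symm⟩
        · rintro ⟨rfl, rfl⟩
          refine ⟨⟨(hmE _).mpr ?_, (hmE _).mpr hi⟩, ?_⟩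
          · intro h
            apply hi
            nth_rw 1 [← h]
            simp
          · rw [Equiv.apply_symm_apply, Finset.pair_comm]
    have hsplit : ∀ i : ι, (T.filter (fun σ => σ i = i)).card + (T.filter (fun σ => ¬ σ i = i)).card = N.choose 2 := by
      intro i
      rw [← hTcard]
      exact Finset.card_filter_add_card_filter_not _
    have hdouble : ∑ i : ι, (T.filter (fun σ => σ i = i)).card =
        ∑ σ ∈ T, (Finset.univ.filter (fun i => σ i = i)).card := by
      simp only [Finset.card_filter]
      exact Finset.sum_comm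
    have h1T : (1 : Equiv.Perm ι) ∈ T := (hTS 1).mpr h1
    have hid : (Finset.univ.filter (fun i => (1 : Equiv.Perm ι) i = i)).card = N := by
      have := hcount 1
      rw [Equiv.Perm.support_one, Finset.card_empty, add_zero] at this
      exact this
    rw [← Finset.add_sum_erase T _ h1T, hid] at hdouble
    have herase : (T.erase 1).card = N.choose 2 - 1 := by rw [Finset.card_erase_of_mem h1T, hTcard]
  · -- N = 5
    have c5 : (5 : ℕ).choose 2 = 10 := by decide
    rw [hN, c5] at hTcard herase hsplit
    have hz : ∑ σ ∈ T.erase 1, (Finset.univ.filter (fun i => σ i = i)).card = 0 := by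
      apply Finset.sum_eq_zero
      intro σ hσ
      rw [Finset.mem_erase, hTS] at hσ
      have h1 := key σ hσ.2 hσ.1
      have h2 := hcount σ
      by_contra hne
      have h3 : 2 ≤ (Finset.univ.filter (fun i => σ i = i)).card := by omega
      exact hσ.1 (htwo σ hσ.2 h3)
    have hf : ∀ i : ι, (T.filter (fun σ => σ i = i)).card = 2 := by
      intro i
      have e1 := hpt i
      have e2 := hsplit i
      rw [hN] at e1
      omega
    rw [hz, Finset.sum_congr rfl (fun i _ => hf i), Finset.sum_const, Finset.card_univ, ← hNdef, hN] at hdouble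
    norm_num at hdouble
  · -- N = 7
    have c7 : (7 : ℕ).choose 2 = 21 := by decide
    rw [hN, c7] at hTcard herase hsplit
    have hz : ∑ σ ∈ T.erase 1, (Finset.univ.filter (fun i => σ i = i)).card = 20 := by
      rw [Finset.sum_congr rfl (g := fun _ => 1)]
      · rw [← Finset.card_eq_sum_ones, herase]
      · intro σ hσ
        rw [Finset.mem_erase, hTS] at hσ
        have h1 := key σ hσ.2 hσ.1
        have h2 := hcount σ
        by_contra hne
        have h3 : 2 ≤ (Finset.univ.filter (fun i => σ i = i)).card := by omega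
        exact hσ.1 (htwo σ hσ.2 h3)
    have hf : ∀ i : ι, (T.filter (fun σ => σ i = i)).card = 3 := by
      intro i
      have e1 := hpt i
      have e2 := hsplit i
      rw [hN] at e1
      omega
    rw [hz, Finset.sum_congr rfl (fun i _ => hf i), Finset.sum_const, Finset.card_univ, ← hNdef, hN] at hdouble
    norm_num at hdouble

end H73.FrComb
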