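import Cfsg.Agent.Lib.H96.FrDef

/-! Frame stabilisers, piece P1a. -/

set_option autoImplicit false

namespace H73.FrStep

open Matrix H96.Fr

variable {ι F : Type*} [Fintype ι] [DecidableEq ι] [Field F] {K : Subgroup ((ι → F) ≃ₗ[F] (ι → F))}

lemma e_self (i : ι) : (e i : ι → F) i = 1 := by simp [e]

lemma e_ne {i j : ι} (h : j ≠ i) : (e i : ι → F) j = 0 := by simp [e, h]

lemma e_inj {i j : ι} (h : (e i : ι → F) = e j ∨ (e i : ι → F) = - e j) : i = j := by
  by_contra hne
  have h1 : (e i : ι → F) i = 1 := e_self i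
  rcases h with h | h
  · rw [h, e_ne hne] at h1
    exact zero_ne_one h1
  · rw [h, Pi.neg_apply, e_ne hne, neg_zero] at h1
    exact zero_ne_one h1

lemma sg_e (i j l : ι) : (sg i j : (ι → F) ≃ₗ[F] (ι → F)) (e l) = if l = i ∨ l = j then - e l else e l := by
  funext k
  rw [sg_apply]
  by_cases hk : k = l
  · subst hk
    by_cases h : k = i ∨ k = j
    · rw [if_pos h, if_pos h, Pi.neg_apply]
    · rw [if_neg h, if_neg h]
  · have h0 : (e l : ι → F) k = 0 := e_ne hk
    rw [h0, neg_zero]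
    split_ifs <;> simp [h0]

lemma Mon.mul {a b : (ι → F) ≃ₗ[F] (ι → F)} (ha : Mon a) (hb : Mon b) : Mon (a * b) := by
  intro i
  obtain ⟨j, hj⟩ := hb i
  obtain ⟨k, hk⟩ := ha j
  refine ⟨k, ?_⟩
  rw [LinearEquiv.mul_apply]
  rcases hj with h | h <;> rcases hk with h' | h' <;> rw [h] <;> simp [h']

lemma mon_pm (σ : Equiv.Perm ι) : Mon (pm σ : (ι → F) ≃ₗ[F] (ι → F)) := fun i => ⟨σ i, Or.inl (pm_e σ i)⟩

/-- diagonal elements with prescribed signs away from `i0` -/
lemma diag_ex (D : Dat K) (i0 : ι) : ∀ J : Finset ι, i0 ∉ J → ∃ s ∈ K,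
    (∀ l, l ≠ i0 → s (e l) = if l ∈ J then - e l else e l) ∧ (s (e i0) = e i0 ∨ s (e i0) = - e i0) := by
  intro J
  induction J using Finset.induction_on with
  | empty =>
    intro _
    exact ⟨1, K.one_mem, fun l _ => by simp, Or.inl (by simp)⟩
  | insert j J hj ih =>
    intro h0
    rw [Finset.mem_insert, not_or] at h0
    obtain ⟨s, hs, hs1, hs2⟩ := ih h0.2
    refine ⟨sg j i0 * s, K.mul_mem (D.sg j i0 (fun h => h0.1 h.symm)) hs, ?_, ?_⟩
    · intro l hl
      rw [LinearEquiv.mul_apply, hs1 l hl]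
      by_cases hlj : l = j
      · subst hlj
        rw [if_neg hj, sg_e, if_pos (Or.inl rfl), if_pos (Finset.mem_insert_self _ _)]
      · have h1 : ¬ (l = j ∨ l = i0) := by
          rintro (h | h)
          · exact hlj h
          · exact hl h
        have h2 : (l ∈ insert j J) ↔ l ∈ J := by
          rw [Finset.mem_insert]
          exact ⟨fun h => h.resolve_left hlj, Or.inr⟩
        by_cases hlJ : l ∈ J
        · rw [if_pos hlJ, if_pos (h2.mpr hlJ), map_neg, sg_e, if_neg h1]
        · rw [if_neg hlJ, if_neg (fun h => hlJ (h2.mp h)), sg_e, if_neg h1]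
    · rw [LinearEquiv.mul_apply]
      rcases hs2 with h | h
      · rw [h, sg_e, if_pos (Or.inr rfl)]
        exact Or.inr rfl
      · rw [h, map_neg, sg_e, if_pos (Or.inr rfl), neg_neg]
        exact Or.inl rfl

theorem step0 (D : Dat K) (h2 : (2:F) ≠ 0) {g : (ι → F) ≃ₗ[F] (ι → F)} (hg : g ∈ K) {I : Finset ι}
    (hI : 2 ≤ I.card) (h : ∀ j, j ∉ I → ∃ k, g (e j) = e k ∨ g (e j) = - e k)
    (hm : ∀ x ∈ K, Sup x I → Mon x) : Mon g := by
  classical
  obtain ⟨a, ha, b, hb, hab⟩ := Finset.one_lt_card.mp hI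
  choose κ hκ using h
  set κ' : {j // j ∉ I} → ι := fun j => κ j.1 j.2 with hκ'
  have hinj : Function.Injective κ' := by
    rintro ⟨j, hj⟩ ⟨j', hj'⟩ hjj
    have h1 := hκ j hj
    have h2 := hκ j' hj'
    have h3 : κ j hj = κ j' hj' := hjj
    rw [h3] at h1
    apply Subtype.ext
    change j = j'
    have h4 : g (e j) = g (e j') ∨ g (e j) = - g (e j') := by
      rcases h1 with h1 | h1 <;> rcases h2 with h2 | h2 <;> rw [h1, h2] <;> simp
    apply e_inj (F := F)
    rcases h4 with h4 | h4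
    · exact Or.inl (g.injective h4)
    · right
      apply g.injective
      rw [h4, map_neg]
  -- the permutation
  obtain ⟨π, hπs, hπ⟩ : ∃ π : Equiv.Perm ι, Equiv.Perm.sign π = 1 ∧ ∀ j (hj : j ∉ I), π j = κ j hj := by
    set π0 : Equiv.Perm ι := Equiv.extendSubtype (p := fun j => j ∉ I) (q := fun k => k ∈ Set.range κ')
      (Equiv.ofInjective κ' hinj) with hπ0
    have hπ00 : ∀ j (hj : j ∉ I), π0 j = κ j hj := by
      intro j hj
      rw [hπ0, Equiv.extendSubtype_apply_of_mem _ j hj]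
      rfl
    rcases Int.units_eq_one_or (Equiv.Perm.sign π0) with hs | hs
    · exact ⟨π0, hs, hπ00⟩
    · refine ⟨π0 * Equiv.swap a b, ?_, ?_⟩
      · rw [Equiv.Perm.sign_mul, hs, Equiv.Perm.sign_swap hab]; decide
      · intro j hj
        have hja : j ≠ a := by rintro rfl; exact hj ha
        have hjb : j ≠ b := by rintro rfl; exact hj hb
        rw [Equiv.Perm.mul_apply, Equiv.swap_apply_of_ne_of_ne hja hjb, hπ00 j hj]
  set g' : (ι → F) ≃ₗ[F] (ι → F) := pm π⁻¹ * g with hg'
  have hπi : Equiv.Perm.sign π⁻¹ = 1 := by rw [Equiv.Perm.sign_inv, hπs]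
  have hg'K : g' ∈ K := K.mul_mem (D.pm π⁻¹ hπi) hg
  have hg'e : ∀ j, j ∉ I → g' (e j) = e j ∨ g' (e j) = - e j := by
    intro j hj
    rw [hg', LinearEquiv.mul_apply]
    have h1 : π⁻¹ (κ j hj) = j := by rw [← hπ j hj]; simp
    rcases hκ j hj with h | h
    · left; rw [h, pm_e, h1]
    · right; rw [h, map_neg, pm_e, h1]
  -- signs
  set J : Finset ι := Finset.univ.filter (fun j => j ∉ I ∧ g' (e j) = - e j) with hJ
  have haJ : a ∉ J := by
    rw [hJ, Finset.mem_filter]
    exact fun h => h.2.1 ha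
  obtain ⟨s, hs, hs1, hs2⟩ := diag_ex D a J haJ
  have hsM : Mon s := by
    intro l
    refine ⟨l, ?_⟩
    by_cases hl : l = a
    · rw [hl]; exact hs2
    · rw [hs1 l hl]
      by_cases h : l ∈ J
      · rw [if_pos h]; exact Or.inr rfl
      · rw [if_neg h]; exact Or.inl rfl
  have hsi : ∀ l, s⁻¹ (e l) = s (e l) := by
    intro l
    apply s.injective
    have h0 : s (s⁻¹ (e l)) = e l := by
      rw [← LinearEquiv.mul_apply, mul_inv_cancel]; rfl
    rw [h0]
    have h3 : s (e l) = e l ∨ s (e l) = - e l := by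
      by_cases hl : l = a
      · rw [hl]; exact hs2
      · rw [hs1 l hl]
        by_cases h : l ∈ J
        · rw [if_pos h]; exact Or.inr rfl
        · rw [if_neg h]; exact Or.inl rfl
    rcases h3 with h | h
    · rw [h, h]
    · rw [h, map_neg, h, neg_neg]
  have hsiM : Mon s⁻¹ := by
    intro l
    rw [hsi]
    exact hsM l
  set x := s * g' with hx
  have hxK : x ∈ K := K.mul_mem hs hg'K
  have hxS : Sup x I := by
    intro j hj
    have hja : j ≠ a := fun h => hj (h ▸ ha)
    rw [hx, LinearEquiv.mul_apply]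
    rcases hg'e j hj with h | h
    · by_cases hjJ : j ∈ J
      · have h' := (Finset.mem_filter.mp hjJ).2.2
        rw [h', map_neg, hs1 j hja, if_pos hjJ, neg_neg]
      · rw [h, hs1 j hja, if_neg hjJ]
    · have hjJ : j ∈ J := by rw [hJ, Finset.mem_filter]; exact ⟨Finset.mem_univ _, hj, h⟩
      rw [h, map_neg, hs1 j hja, if_pos hjJ, neg_neg]
  have hxM := hm x hxK hxS
  have hgx : g = pm π * (s⁻¹ * x) := by
    have hpp : (pm π : (ι → F) ≃ₗ[F] (ι → F)) * pm π⁻¹ = 1 := by
      apply LinearEquiv.ext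
      intro y
      funext k
      rw [LinearEquiv.mul_apply, pm_apply, pm_apply]
      change y (π (π.symm k)) = y k
      rw [Equiv.apply_symm_apply]
    rw [hx, inv_mul_cancel_left, hg', ← mul_assoc, hpp, one_mul]
  rw [hgx]
  exact Mon.mul (mon_pm π) (Mon.mul hsiM hxM)

end H73.FrStep
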