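import Mathlib

/-!
# The Krull-Schmidt theorem for finite groups (H73.KrullSchmidt)
-/

set_option autoImplicit false

namespace H73.KrullSchmidt

/-- directly indecomposable -/
def Indec (A : Type*) [Group A] : Prop :=
  Nontrivial A ∧ ∀ H K : Subgroup A, H.Normal → K.Normal → H ⊓ K = ⊥ → H ⊔ K = ⊤ → H = ⊥ ∨ K = ⊥

theorem exists_idem {M : Type*} [Monoid M] [Finite M] (x : M) : ∃ n, 0 < n ∧ x ^ n * x ^ n = x ^ n := by
  obtain ⟨i, j, hij, h⟩ := Finite.exists_ne_map_eq_of_infinite (fun n : ℕ => x ^ n)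
  change x ^ i = x ^ j at h
  wlog hlt : i < j generalizing i j
  · exact this j i hij.symm h.symm (by omega)
  obtain ⟨p, rfl⟩ : ∃ p, j = i + p := ⟨j - i, by omega⟩
  have hp : 0 < p := by omega
  have h1 : ∀ k, x ^ (i + k + p) = x ^ (i + k) := by
    intro k
    have : i + k + p = (i + p) + k := by ring
    rw [this, pow_add, ← h, ← pow_add]
  have h2 : ∀ m k, x ^ (i + k + p * m) = x ^ (i + k) := by
    intro m
    induction m with
    | zero => intro k; rw [Nat.mul_zero, Nat.add_zero]
    | succ m ih =>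
      intro k
      have : i + k + p * (m + 1) = i + (k + p * m) + p := by ring
      rw [this, h1, ← add_assoc, ih]
  refine ⟨p * (i + 1), Nat.mul_pos hp (Nat.succ_pos i), ?_⟩
  rw [← pow_add]
  have h3 : i ≤ p * (i + 1) := by nlinarith
  obtain ⟨k, hk⟩ := Nat.exists_eq_add_of_le h3
  have h4 := h2 (i + 1) k
  rw [← hk] at h4
  exact h4

/-- Fitting's lemma -/
theorem fitting {A : Type*} [Group A] [Finite A] (hA : Indec A) (f : A →* A)
    (hf : ∀ x a, f (x * a * x⁻¹) = x * f a * x⁻¹) :
    Function.Bijective f ∨ ∀ a, f a = a → a = 1 := by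
  have hfinE : Finite (Monoid.End A) := Finite.of_injective (fun f : Monoid.End A => (f : A → A)) DFunLike.coe_injective
  let F : Monoid.End A := f
  have hF1 : ∀ (k : ℕ) (a : A), (F ^ (k + 1)) a = f ((F ^ k) a) := by
    intro k a
    rw [pow_succ']
    rfl
  have hF2 : ∀ (k : ℕ) (a : A), (F ^ (k + 1)) a = (F ^ k) (f a) := by
    intro k a
    rw [pow_succ]
    rfl
  obtain ⟨n, hn, hg⟩ := exists_idem (M := Monoid.End A) F
  let g : A →* A := F ^ n
  have hgdef : ∀ a, g a = (F ^ n) a := fun a => rfl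
  have hgg : ∀ a, g (g a) = g a := fun a => DFunLike.congr_fun hg a
  have hgn : ∀ x a, g (x * a * x⁻¹) = x * g a * x⁻¹ := by
    have : ∀ k : ℕ, ∀ x a, (F ^ k) (x * a * x⁻¹) = x * (F ^ k) a * x⁻¹ := by
      intro k
      induction k with
      | zero => intro x a; rfl
      | succ k ih =>
        intro x a
        rw [hF1, hF1, ih, hf]
    exact this n
  have hrn : g.range.Normal := by
    constructor
    rintro _ ⟨a, rfl⟩ x
    exact ⟨x * a * x⁻¹, hgn x a⟩
  have h1 : g.ker ⊓ g.range = ⊥ := by
    rw [eq_bot_iff]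
    rintro _ ⟨hx, ⟨a, rfl⟩⟩
    have hx' : g (g a) = 1 := hx
    rw [hgg] at hx'
    exact hx'
  have h2 : g.ker ⊔ g.range = ⊤ := by
    rw [eq_top_iff]
    intro a _
    have h3 : a * (g a)⁻¹ ∈ g.ker := by
      rw [MonoidHom.mem_ker, map_mul, map_inv, hgg, mul_inv_cancel]
    have h5 : g a ∈ g.range := ⟨a, rfl⟩
    have h4 := Subgroup.mul_mem_sup h3 h5
    rwa [inv_mul_cancel_right] at h4
  rcases hA.2 g.ker g.range inferInstance hrn h1 h2 with h | h
  · left
    have hinj : Function.Injective f := by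
      rw [injective_iff_map_eq_one]
      intro a ha
      have : a ∈ g.ker := by
        rw [MonoidHom.mem_ker, hgdef]
        obtain ⟨m, rfl⟩ : ∃ m, n = m + 1 := ⟨n - 1, by omega⟩
        rw [hF2, ha, map_one]
      rw [h, Subgroup.mem_bot] at this
      exact this
    exact Finite.injective_iff_bijective.mp hinj
  · right
    intro a ha
    have h3 : ∀ k : ℕ, (F ^ k) a = a := by
      intro k
      induction k with
      | zero => rfl
      | succ k ih => rw [hF2, ha, ih]
    have h4 : g a ∈ g.range := ⟨a, rfl⟩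
    rw [h, Subgroup.mem_bot] at h4
    rw [← h4]
    exact (h3 n).symm

/-- exchange, when the component through `B` is bijective -/
theorem exchange_of_bijective {A C B D : Type*} [Group A] [Group C] [Group B] [Group D] [Finite A] [Finite C] [Finite B] [Finite D]
    (e : A × C ≃* B × D) (hf : Function.Bijective (fun a : A => (e.symm ((e (a, 1)).1, 1)).1)) :
    ∃ B' : Subgroup B, Nonempty (B ≃* A × B') ∧ Nonempty (C ≃* B' × D) := by
  let α : A →* B := (MonoidHom.fst B D).comp (e.toMonoidHom.comp (MonoidHom.inl A C))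
  let β : B →* A := (MonoidHom.fst A C).comp (e.symm.toMonoidHom.comp (MonoidHom.inl B D))
  have hα : ∀ a, α a = (e (a, 1)).1 := fun a => rfl
  have hβ : ∀ b, β b = (e.symm (b, 1)).1 := fun b => rfl
  have hf' : Function.Bijective (fun a : A => β (α a)) := hf
  have hcomm : ∀ a : A, ∀ b : B, b ∈ β.ker → α a * b = b * α a := by
    intro a b hb
    have hb1 : (e.symm (b, 1)).1 = 1 := hb
    have h1 : (a, (1 : C)) * e.symm (b, 1) = e.symm (b, 1) * (a, 1) := by
      apply Prod.ext
      · change a * (e.symm (b, 1)).1 = (e.symm (b, 1)).1 * a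
        rw [hb1, mul_one, one_mul]
      · change 1 * (e.symm (b, 1)).2 = (e.symm (b, 1)).2 * 1
        rw [mul_one, one_mul]
    have h2 := congrArg e h1
    rw [map_mul, map_mul, e.apply_symm_apply] at h2
    exact congrArg Prod.fst h2
  let μ : A × β.ker →* B :=
    { toFun := fun x => α x.1 * x.2.1
      map_one' := by
        change α 1 * 1 = 1
        rw [map_one, one_mul]
      map_mul' := by
        rintro ⟨a, b⟩ ⟨a', b'⟩
        change α (a * a') * ((b : B) * b') = (α a * b) * (α a' * b')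
        rw [map_mul, mul_assoc, mul_assoc, ← mul_assoc (α a') (b : B), hcomm a' b b.2]
        group }
  have hμ : Function.Bijective μ := by
    constructor
    · rw [injective_iff_map_eq_one]
      rintro ⟨a, b⟩ h
      have h' : α a * b = 1 := h
      have h1 : β (α a) = 1 := by
        have h2 := congrArg β h'
        rw [map_mul, map_one, (MonoidHom.mem_ker.mp b.2), mul_one] at h2
        exact h2
      have h3 : a = 1 := by
        apply hf'.1
        change β (α a) = β (α 1)
        rw [h1, map_one, map_one]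
      rw [h3, map_one, one_mul] at h'
      exact Prod.ext h3 (Subtype.ext h')
    · intro b
      obtain ⟨a, ha⟩ := hf'.2 (β b)
      have ha' : β (α a) = β b := ha
      refine ⟨(a, ⟨(α a)⁻¹ * b, ?_⟩), ?_⟩
      · rw [MonoidHom.mem_ker, map_mul, map_inv, ha', inv_mul_cancel]
      · change α a * ((α a)⁻¹ * b) = b
        rw [mul_inv_cancel_left]
  let eB : B ≃* A × β.ker := (MulEquiv.ofBijective μ hμ).symm
  refine ⟨β.ker, ⟨eB⟩, ?_⟩
  let ν : β.ker × D →* C :=
    { toFun := fun x => (e.symm (x.1.1, x.2)).2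
      map_one' := by
        change (e.symm (1, 1)).2 = 1
        have : ((1 : B), (1 : D)) = 1 := rfl
        rw [this, map_one]; rfl
      map_mul' := by
        rintro ⟨b, d⟩ ⟨b', d'⟩
        change (e.symm (((b : B) * b'), d * d')).2 = (e.symm (b, d)).2 * (e.symm (b', d')).2
        have : (((b : B) * b'), d * d') = ((b : B), d) * ((b' : B), d') := rfl
        rw [this, map_mul]; rfl }
  have hν : Function.Injective ν := by
    rw [injective_iff_map_eq_one]
    rintro ⟨b, d⟩ h
    have h' : (e.symm ((b : B), d)).2 = 1 := h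
    set x := (e.symm ((b : B), d)).1 with hx
    have h1 : e.symm ((b : B), d) = (x, 1) := Prod.ext rfl h'
    have h2 : ((b : B), d) = e (x, 1) := by rw [← h1, e.apply_symm_apply]
    have h3 : (b : B) = α x := congrArg Prod.fst h2
    have h4 : β (α x) = 1 := by rw [← h3]; exact b.2
    have h5 : x = 1 := by
      apply hf'.1
      change β (α x) = β (α 1)
      rw [h4, map_one, map_one]
    rw [h5] at h2
    have h6 : ((b : B), d) = 1 := by
      rw [h2]
      exact map_one e
    have h7 : (b : B) = 1 := congrArg Prod.fst h6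
    have h8 : d = 1 := congrArg Prod.snd h6
    exact Prod.ext (Subtype.ext h7) h8
  have hcard : Nat.card (β.ker × D) = Nat.card C := by
    have h1 : Nat.card (A × C) = Nat.card (B × D) := Nat.card_congr e.toEquiv
    have h2 : Nat.card B = Nat.card (A × β.ker) := Nat.card_congr eB.toEquiv
    rw [Nat.card_prod, Nat.card_prod, h2, Nat.card_prod, mul_assoc] at h1
    rw [Nat.card_prod]
    exact (Nat.eq_of_mul_eq_mul_left Nat.card_pos h1).symm
  have hνb : Function.Bijective ν := (Nat.bijective_iff_injective_and_card ν).mpr ⟨hν, hcard⟩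
  exact ⟨(MulEquiv.ofBijective ν hνb).symm⟩

/-- exchange property of indecomposable groups -/
theorem exchange {A C B D : Type*} [Group A] [Group C] [Group B] [Group D] [Finite A] [Finite C] [Finite B] [Finite D]
    (hA : Indec A) (e : A × C ≃* B × D) :
    (∃ B' : Subgroup B, Nonempty (B ≃* A × B') ∧ Nonempty (C ≃* B' × D)) ∨
      (∃ D' : Subgroup D, Nonempty (D ≃* A × D') ∧ Nonempty (C ≃* B × D')) := by
  let f : A →* A := (MonoidHom.fst A C).comp (e.symm.toMonoidHom.comp ((MonoidHom.inl B D).comp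
    ((MonoidHom.fst B D).comp (e.toMonoidHom.comp (MonoidHom.inl A C)))))
  let h : A →* A := (MonoidHom.fst A C).comp (e.symm.toMonoidHom.comp ((MonoidHom.inr B D).comp
    ((MonoidHom.snd B D).comp (e.toMonoidHom.comp (MonoidHom.inl A C)))))
  have hfdef : ∀ a, f a = (e.symm ((e (a, 1)).1, 1)).1 := fun a => rfl
  have hhdef : ∀ a, h a = (e.symm (1, (e (a, 1)).2)).1 := fun a => rfl
  have hsum : ∀ a, f a * h a = a := by
    intro a
    rw [hfdef, hhdef]
    have h1 : e.symm ((e (a, 1)).1, 1) * e.symm (1, (e (a, 1)).2) = (a, 1) := by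
      rw [← map_mul]
      have : (((e (a, 1)).1, 1) : B × D) * (1, (e (a, 1)).2) = e (a, 1) := by
        apply Prod.ext
        · exact mul_one _
        · exact one_mul _
      rw [this, e.symm_apply_apply]
    exact congrArg Prod.fst h1
  have hcomm : ∀ a b, f a * h b = h b * f a := by
    intro a b
    rw [hfdef, hhdef]
    have h1 : e.symm ((e (a, 1)).1, 1) * e.symm (1, (e (b, 1)).2) = e.symm (1, (e (b, 1)).2) * e.symm ((e (a, 1)).1, 1) := by
      rw [← map_mul, ← map_mul]
      congr 1
      apply Prod.ext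
      · exact (mul_one _).trans (one_mul _).symm
      · exact (one_mul _).trans (mul_one _).symm
    exact congrArg Prod.fst h1
  have hfn : ∀ x a, f (x * a * x⁻¹) = x * f a * x⁻¹ := by
    intro x a
    rw [map_mul, map_mul, map_inv]
    conv_rhs => rw [← hsum x]
    have h1 : f x * h x * f a * (f x * h x)⁻¹ = f x * (h x * f a) * (h x)⁻¹ * (f x)⁻¹ := by group
    rw [h1, ← hcomm]
    group
  rcases fitting hA f hfn with hb | hb
  · exact Or.inl (exchange_of_bijective e hb)
  · right
    have hinj : Function.Injective h := by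
      rw [injective_iff_map_eq_one]
      intro a ha
      apply hb
      have := hsum a
      rwa [ha, mul_one] at this
    have hbij : Function.Bijective h := Finite.injective_iff_bijective.mp hinj
    obtain ⟨D', ⟨h1⟩, ⟨h2⟩⟩ := exchange_of_bijective (e.trans MulEquiv.prodComm) hbij
    exact ⟨D', ⟨h1⟩, ⟨h2.trans MulEquiv.prodComm⟩⟩

theorem Indec.of_prod {A B B' : Type*} [Group A] [Group B] [Group B'] (hB : Indec B) (hA : Nontrivial A)
    (e : B ≃* A × B') : Nonempty (A ≃* B) ∧ Subsingleton B' := by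
  let H : Subgroup B := (MonoidHom.inl A B').range.comap e.toMonoidHom
  let K : Subgroup B := (MonoidHom.inr A B').range.comap e.toMonoidHom
  have hH : ∀ b, b ∈ H ↔ (e b).2 = 1 := by
    intro b
    constructor
    · rintro ⟨a, ha⟩
      have h1 : (a, 1) = e b := ha
      rw [← h1]
    · intro h
      exact ⟨(e b).1, Prod.ext rfl h.symm⟩
  have hK : ∀ b, b ∈ K ↔ (e b).1 = 1 := by
    intro b
    constructor
    · rintro ⟨a, ha⟩
      have h1 : (1, a) = e b := ha
      rw [← h1]
    · intro h
      exact ⟨(e b).2, Prod.ext h.symm rfl⟩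
  have hHn : H.Normal := by
    constructor
    intro x hx g
    rw [hH] at hx ⊢
    rw [map_mul, map_mul, map_inv, Prod.snd_mul, Prod.snd_mul, hx, mul_one, Prod.snd_inv, mul_inv_cancel]
  have hKn : K.Normal := by
    constructor
    intro x hx g
    rw [hK] at hx ⊢
    rw [map_mul, map_mul, map_inv, Prod.fst_mul, Prod.fst_mul, hx, mul_one, Prod.fst_inv, mul_inv_cancel]
  have h1 : H ⊓ K = ⊥ := by
    rw [eq_bot_iff]
    rintro x ⟨hx1, hx2⟩
    have hx1' := (hH x).mp hx1
    have hx2' := (hK x).mp hx2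
    have h2 : e x = 1 := Prod.ext hx2' hx1'
    exact (MulEquiv.map_eq_one_iff e).mp h2
  have h2 : H ⊔ K = ⊤ := by
    rw [eq_top_iff]
    intro x _
    have h3 : e.symm ((e x).1, 1) ∈ H := by rw [hH, e.apply_symm_apply]
    have h4 : e.symm (1, (e x).2) ∈ K := by rw [hK, e.apply_symm_apply]
    have h5 := Subgroup.mul_mem_sup h3 h4
    rw [← map_mul] at h5
    have h6 : (((e x).1, 1) : A × B') * (1, (e x).2) = e x := by
      apply Prod.ext
      · exact mul_one _
      · exact one_mul _
    rwa [h6, e.symm_apply_apply] at h5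
  rcases hB.2 H K hHn hKn h1 h2 with h | h
  · exfalso
    obtain ⟨a, ha⟩ := exists_ne (1 : A)
    have h3 : e.symm (a, 1) ∈ H := by rw [hH, e.apply_symm_apply]
    rw [h, Subgroup.mem_bot] at h3
    have h4 : (a, (1 : B')) = 1 := by
      rw [← e.apply_symm_apply (a, 1), h3, map_one]
    exact ha (congrArg Prod.fst h4)
  · have hsub : Subsingleton B' := by
      constructor
      have key : ∀ b : B', b = 1 := by
        intro b
        have h3 : e.symm (1, b) ∈ K := by rw [hK, e.apply_symm_apply]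
        rw [h, Subgroup.mem_bot] at h3
        have h4 : ((1 : A), b) = 1 := by
          rw [← e.apply_symm_apply (1, b), h3, map_one]
        exact congrArg Prod.snd h4
      intro a b
      rw [key a, key b]
    refine ⟨⟨?_⟩, hsub⟩
    have : Unique B' := { default := 1, uniq := fun a => Subsingleton.elim _ _ }
    exact (e.trans MulEquiv.prodUnique).symm

/-- splitting off one factor -/
def splitAt {ι : Type*} [DecidableEq ι] {B : ι → Type*} [∀ i, Group (B i)] (i0 : ι) :
    ((i : ι) → B i) ≃* B i0 × ((i : {i // i ≠ i0}) → B i.1) :=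
  { Equiv.piSplitAt i0 B with
    map_mul' := fun _ _ => rfl }

universe u v w

theorem exchange_pi_aux : ∀ (n : ℕ) (ι : Type) [Fintype ι] [DecidableEq ι] (_ : Fintype.card ι = n) {A : Type u} {C : Type v} [Group A] [Group C]
    [Finite A] [Finite C] {B : ι → Type v} [∀ i, Group (B i)] [∀ i, Finite (B i)] (_ : Indec A) (_ : ∀ i, Indec (B i))
    (_ : A × C ≃* ((i : ι) → B i)), ∃ j : ι, Nonempty (A ≃* B j) ∧ Nonempty (C ≃* ((i : {i // i ≠ j}) → B i.1)) := by
  intro n
  induction n with
  | zero =>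
    intro ι _ _ hι A C _ _ _ _ B _ _ hA _ e
    exfalso
    have : IsEmpty ι := Fintype.card_eq_zero_iff.mp hι
    obtain ⟨a, ha⟩ := @exists_ne A hA.1 1
    have h1 : e (a, 1) = e 1 := Subsingleton.elim _ _
    exact ha (congrArg Prod.fst (e.injective h1))
  | succ n ih =>
    intro ι _ _ hι A C _ _ _ _ B _ _ hA hB e
    have hne : Nonempty ι := by
      rw [← Fintype.card_pos_iff, hι]; exact Nat.succ_pos n
    obtain ⟨i0⟩ := hne
    rcases exchange hA (e.trans (splitAt i0)) with ⟨B', ⟨h1⟩, ⟨h2⟩⟩ | ⟨D', ⟨h1⟩, ⟨h2⟩⟩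
    · obtain ⟨h3, h4⟩ := (hB i0).of_prod hA.1 h1
      refine ⟨i0, h3, ?_⟩
      have : Unique B' := { default := 1, uniq := fun a => Subsingleton.elim _ _ }
      exact ⟨h2.trans MulEquiv.uniqueProd⟩
    · have hcard : Fintype.card {i // i ≠ i0} = n := by
        rw [Fintype.card_subtype_compl, hι, Fintype.card_subtype_eq]
        rfl
      obtain ⟨j, h3, ⟨h4⟩⟩ := ih {i // i ≠ i0} hcard hA (fun i => hB i.1) h1.symm
      refine ⟨j.1, h3, ?_⟩
      have e1 : C ≃* B i0 × ((i : {i : {i // i ≠ i0} // i ≠ j}) → B i.1.1) :=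
        h2.trans (MulEquiv.prodCongr (MulEquiv.refl _) h4)
      have e2 : ((i : {i // i ≠ j.1}) → B i.1) ≃* B i0 × ((i : {i : {i // i ≠ j.1} // i ≠ ⟨i0, j.2.symm⟩}) → B i.1.1) :=
        splitAt (ι := {i // i ≠ j.1}) (B := fun i => B i.1) ⟨i0, j.2.symm⟩
      have e3 : ((i : {i : {i // i ≠ i0} // i ≠ j}) → B i.1.1) ≃* ((i : {i : {i // i ≠ j.1} // i ≠ ⟨i0, j.2.symm⟩}) → B i.1.1) :=
        { toFun := fun f i => f ⟨⟨i.1.1, fun h => i.2 (Subtype.ext h)⟩, fun h => i.1.2 (congrArg Subtype.val h)⟩
          invFun := fun f i => f ⟨⟨i.1.1, fun h => i.2 (Subtype.ext h)⟩, fun h => i.1.2 (congrArg Subtype.val h)⟩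
          left_inv := fun f => rfl
          right_inv := fun f => rfl
          map_mul' := fun f g => rfl }
      exact ⟨e1.trans ((MulEquiv.prodCongr (MulEquiv.refl _) e3).trans e2.symm)⟩

theorem exchange_pi (ι : Type) [Fintype ι] [DecidableEq ι] {A : Type u} {C : Type w} [Group A] [Group C]
    [Finite A] [Finite C] {B : ι → Type v} [∀ i, Group (B i)] [∀ i, Finite (B i)] (hA : Indec A) (hB : ∀ i, Indec (B i))
    (e : A × C ≃* ((i : ι) → B i)) : ∃ j : ι, Nonempty (A ≃* B j) ∧ Nonempty (C ≃* ((i : {i // i ≠ j}) → B i.1)) := by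
  let g : C →* ((i : ι) → B i) := e.toMonoidHom.comp (MonoidHom.inr A C)
  have hg : Function.Injective g := by
    intro a b h
    have h1 : e (1, a) = e (1, b) := h
    exact congrArg Prod.snd (e.injective h1)
  let eC : C ≃* g.range := MonoidHom.ofInjective hg
  obtain ⟨j, h1, ⟨h2⟩⟩ := exchange_pi_aux _ ι rfl hA hB ((MulEquiv.prodCongr (MulEquiv.refl A) eC.symm).trans e)
  exact ⟨j, h1, ⟨eC.trans h2⟩⟩

theorem krull_schmidt : ∀ (n : ℕ) (ι κ : Type) [Fintype ι] [Fintype κ] [DecidableEq ι] [DecidableEq κ] (_ : Fintype.card ι = n)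
    {A : ι → Type*} {B : κ → Type*} [∀ i, Group (A i)] [∀ i, Finite (A i)] [∀ i, Group (B i)] [∀ i, Finite (B i)]
    (_ : ∀ i, Indec (A i)) (_ : ∀ i, Indec (B i)) (_ : ((i : ι) → A i) ≃* ((i : κ) → B i)),
    ∃ σ : ι ≃ κ, ∀ i, Nonempty (A i ≃* B (σ i)) := by
  intro n
  induction n with
  | zero =>
    intro ι κ _ _ _ _ hι A B _ _ _ _ _ hB e
    have h1 : IsEmpty ι := Fintype.card_eq_zero_iff.mp hι
    have h2 : IsEmpty κ := by
      constructor
      intro j
      obtain ⟨b, hb⟩ := @exists_ne (B j) (hB j).1 1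
      have h3 : e.symm (Pi.mulSingle j b) = e.symm 1 := Subsingleton.elim _ _
      have h4 := congrFun (e.symm.injective h3) j
      rw [Pi.mulSingle_eq_same] at h4
      exact hb h4
    exact ⟨Equiv.equivOfIsEmpty ι κ, fun i => isEmptyElim i⟩
  | succ n ih =>
    intro ι κ _ _ _ _ hι A B _ _ _ _ hA hB e
    have hne : Nonempty ι := by
      rw [← Fintype.card_pos_iff, hι]; exact Nat.succ_pos n
    obtain ⟨i0⟩ := hne
    obtain ⟨j, ⟨h1⟩, ⟨h2⟩⟩ := exchange_pi κ (hA i0) hB ((splitAt (B := A) i0).symm.trans e)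
    have hcard : Fintype.card {i // i ≠ i0} = n := by
      rw [Fintype.card_subtype_compl, hι, Fintype.card_subtype_eq]
      rfl
    obtain ⟨τ, hτ⟩ := ih {i // i ≠ i0} {k // k ≠ j} hcard (fun i => hA i.1) (fun i => hB i.1) h2
    let σ : ι ≃ κ :=
      { toFun := fun i => if h : i = i0 then j else (τ ⟨i, h⟩).1
        invFun := fun k => if h : k = j then i0 else (τ.symm ⟨k, h⟩).1
        left_inv := by
          intro i
          by_cases h : i = i0
          · simp [h]
          · simp only [dif_neg h, dif_neg (τ ⟨i, h⟩).2]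
            simp
        right_inv := by
          intro k
          by_cases h : k = j
          · simp [h]
          · simp only [dif_neg h, dif_neg (τ.symm ⟨k, h⟩).2]
            simp }
    refine ⟨σ, ?_⟩
    intro i
    by_cases h : i = i0
    · subst h
      have h3 : σ i = j := dif_pos rfl
      rw [h3]
      exact ⟨h1⟩
    · have h3 : σ i = (τ ⟨i, h⟩).1 := dif_neg h
      rw [h3]
      exact hτ ⟨i, h⟩

end H73.KrullSchmidt
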