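import Mathlib

/-!
# The number of partitions of `n ≥ 5` is at most `2 ^ (n - 2)` (H73.PartitionBound)
-/

set_option autoImplicit false

namespace H73.PartitionBound

open Multiset

/-- partitions of `n` as a set of multisets -/
def PS (n : ℕ) : Set (Multiset ℕ) := {m | (∀ a ∈ m, 0 < a) ∧ m.sum = n}

def QS (n : ℕ) : Set (Multiset ℕ) := {m | (∀ a ∈ m, 2 ≤ a) ∧ m.sum = n}

theorem PS_finite (n : ℕ) : (PS n).Finite := by
  have : PS n ⊆ Set.range (fun p : Nat.Partition n => p.parts) := by
    rintro m ⟨h1, h2⟩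
    exact ⟨⟨m, fun {i} hi => h1 i hi, h2⟩, rfl⟩
  exact (Set.finite_range _).subset this

theorem QS_sub (n : ℕ) : QS n ⊆ PS n := fun m h => ⟨fun a ha => lt_of_lt_of_le (by norm_num) (h.1 a ha), h.2⟩

theorem QS_finite (n : ℕ) : (QS n).Finite := (PS_finite n).subset (QS_sub n)

theorem step1 (n : ℕ) : (PS (n + 1)).ncard ≤ (PS n).ncard + (QS (n + 1)).ncard := by
  classical
  have h1 : PS (n + 1) ⊆ ((fun m => (1 : ℕ) ::ₘ m) '' PS n) ∪ QS (n + 1) := by
    rintro m ⟨h1, h2⟩
    by_cases h : 1 ∈ m
    · left
      refine ⟨m.erase 1, ⟨fun a ha => h1 a (Multiset.mem_of_mem_erase ha), ?_⟩, Multiset.cons_erase h⟩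
      have h3 := Multiset.cons_erase h
      rw [← h3, Multiset.sum_cons] at h2
      omega
    · right
      refine ⟨fun a ha => ?_, h2⟩
      have h3 := h1 a ha
      have h4 : a ≠ 1 := by rintro rfl; exact h ha
      omega
  have hf : ((fun m => (1 : ℕ) ::ₘ m) '' PS n).Finite := (PS_finite n).image _
  refine (Set.ncard_le_ncard h1 (hf.union (QS_finite _))).trans ((Set.ncard_union_le _ _).trans ?_)
  exact Nat.add_le_add_right (Set.ncard_image_le (PS_finite n)) _

theorem step2 (n : ℕ) : (QS (n + 1)).ncard ≤ (PS n).ncard := by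
  classical
  have hfinT : Finite (PS n) := (PS_finite n).to_subtype
  -- `m ↦ (s - 1) :: (m.erase s)` with `s` minimal
  have hmin : ∀ m ∈ QS (n + 1), ∃ s ∈ m, ∀ t ∈ m, s ≤ t := by
    rintro m ⟨h1, h2⟩
    have hne : m.toFinset.Nonempty := by
      rw [Finset.nonempty_iff_ne_empty]
      intro h
      rw [Multiset.toFinset_eq_empty] at h
      rw [h, Multiset.sum_zero] at h2
      omega
    obtain ⟨s, hs, hs'⟩ := Finset.exists_min_image m.toFinset id hne
    exact ⟨s, Multiset.mem_toFinset.mp hs, fun t ht => hs' t (Multiset.mem_toFinset.mpr ht)⟩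
  choose! s hs hs' using hmin
  have hfin := PS_finite n
  apply Set.ncard_le_ncard_of_injOn (fun m => (s m - 1) ::ₘ (m.erase (s m)))
  · intro m hm
    have h3 := Multiset.cons_erase (hs m hm)
    have h4 := hm.1 _ (hs m hm)
    refine ⟨?_, ?_⟩
    · intro a ha
      rcases Multiset.mem_cons.mp ha with rfl | ha
      · omega
      · have := hm.1 a (Multiset.mem_of_mem_erase ha)
        omega
    · have h5 := hm.2
      rw [← h3, Multiset.sum_cons] at h5
      rw [Multiset.sum_cons]
      omega
  · intro m hm k hk hmk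
    have hmk' : (s m - 1) ::ₘ (m.erase (s m)) = (s k - 1) ::ₘ (k.erase (s k)) := hmk
    have hsm := hm.1 _ (hs m hm)
    have hsk := hk.1 _ (hs k hk)
    have key : ∀ m ∈ QS (n + 1), ∀ k ∈ QS (n + 1), (s m - 1) ::ₘ (m.erase (s m)) = (s k - 1) ::ₘ (k.erase (s k)) → s k - 1 ≤ s m - 1 := by
      intro m hm k hk hmk
      have h1 : s m - 1 ∈ (s k - 1) ::ₘ (k.erase (s k)) := by rw [← hmk]; exact Multiset.mem_cons_self _ _
      rcases Multiset.mem_cons.mp h1 with h2 | h2
      · omega
      · have := hs' k hk _ (Multiset.mem_of_mem_erase h2)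
        omega
    have h1 := key m hm k hk hmk'
    have h2 := key k hk m hm hmk'.symm
    have h3 : s m = s k := by omega
    rw [h3] at hmk'
    have h4 := (Multiset.cons_inj_right _).mp hmk'
    have h5 := Multiset.cons_erase (hs m hm)
    have h6 := Multiset.cons_erase (hs k hk)
    rw [← h5, ← h6, h3, h4]

theorem card_of_QS {n : ℕ} {m : Multiset ℕ} (hm : m ∈ QS n) : 2 * m.card ≤ n := by
  have h := Multiset.card_nsmul_le_sum (s := m) (a := 2) hm.1
  rw [hm.2, smul_eq_mul] at h
  omega

theorem QS_le (n : ℕ) (hn : n ≤ 5) (hn2 : 2 ≤ n) : (QS n).ncard ≤ 2 ∧ (n ≤ 3 → (QS n).ncard ≤ 1) := by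
  have hcases : ∀ m ∈ QS n, m = {n} ∨ (m = {2, n - 2} ∧ 4 ≤ n) := by
    intro m hm
    have h1 := card_of_QS hm
    have h2 : m.card ≠ 0 := by
      intro h
      rw [Multiset.card_eq_zero] at h
      have := hm.2
      rw [h, Multiset.sum_zero] at this
      omega
    have h3 : m.card = 1 ∨ m.card = 2 := by omega
    rcases h3 with h3 | h3
    · left
      obtain ⟨a, rfl⟩ := Multiset.card_eq_one.mp h3
      have := hm.2
      rw [Multiset.sum_singleton] at this
      rw [this]
    · right
      refine ⟨?_, by omega⟩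
      obtain ⟨a, b, rfl⟩ := Multiset.card_eq_two.mp h3
      have h4 := hm.2
      have ha := hm.1 a (by simp)
      have hb := hm.1 b (by simp)
      simp only [Multiset.insert_eq_cons, Multiset.sum_cons, Multiset.sum_singleton] at h4
      have h5 : a = 2 ∨ b = 2 := by omega
      rcases h5 with rfl | rfl
      · congr 2; omega
      · rw [Multiset.pair_comm]; congr 2; omega
  constructor
  · have : QS n ⊆ {{n}, {2, n - 2}} := by
      intro m hm
      rcases hcases m hm with h | ⟨h, _⟩
      · left; exact h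
      · right; exact h
    refine (Set.ncard_le_ncard this (Set.toFinite _)).trans ?_
    refine (Set.ncard_insert_le _ _).trans ?_
    rw [Set.ncard_singleton]
  · intro hn3
    have : QS n ⊆ {{n}} := by
      intro m hm
      rcases hcases m hm with h | ⟨_, h⟩
      · exact h
      · omega
    refine (Set.ncard_le_ncard this (Set.toFinite _)).trans ?_
    rw [Set.ncard_singleton]

theorem PS_five : (PS 5).ncard ≤ 8 := by
  have h0 : (PS 0).ncard ≤ 1 := by
    have : PS 0 ⊆ {0} := by
      intro m hm
      rw [Set.mem_singleton_iff]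
      by_contra h
      obtain ⟨a, ha⟩ := Multiset.exists_mem_of_ne_zero h
      have h1 := hm.1 a ha
      have h2 := Multiset.single_le_sum (s := m) (fun x _ => Nat.zero_le x) a ha
      rw [hm.2] at h2
      omega
    refine (Set.ncard_le_ncard this (Set.toFinite _)).trans ?_
    rw [Set.ncard_singleton]
  have hq1 : (QS 1).ncard ≤ 0 := by
    have : QS 1 = ∅ := by
      rw [Set.eq_empty_iff_forall_notMem]
      intro m hm
      have h1 := card_of_QS hm
      have h2 : m.card = 0 := by omega
      rw [Multiset.card_eq_zero] at h2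
      have := hm.2
      rw [h2, Multiset.sum_zero] at this
      omega
    rw [this, Set.ncard_empty]
  have h1 := step1 0
  have h2 := step1 1
  have h3 := step1 2
  have h4 := step1 3
  have h5 := step1 4
  have q2 := (QS_le 2 (by norm_num) (by norm_num)).2 (by norm_num)
  have q3 := (QS_le 3 (by norm_num) (by norm_num)).2 (by norm_num)
  have q4 := (QS_le 4 (by norm_num) (by norm_num)).1
  have q5 := (QS_le 5 (by norm_num) (by norm_num)).1
  norm_num at h1 h2 h3 h4 h5
  omega

theorem PS_le (n : ℕ) (hn : 5 ≤ n) : (PS n).ncard ≤ 2 ^ (n - 2) := by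
  induction n, hn using Nat.le_induction with
  | base => exact PS_five
  | succ n hn ih =>
    have h1 := step1 n
    have h2 := step2 n
    have h3 : 2 ^ (n + 1 - 2) = 2 * 2 ^ (n - 2) := by
      rw [← pow_succ']; congr 1; omega
    omega

end H73.PartitionBound
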