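import Mathlib
import Cfsg.Prelude.Def_PLocal
import Cfsg.Agent.Lib.H14.Regular

/-!
# Regular `p`-groups: `a ^ q = b ^ q ↔ (a⁻¹ b) ^ q = 1` for `q = p ^ k` (H73.RegQ)
-/

set_option autoImplicit false
open Cfsg Subgroup H14.Regular
open scoped commutatorElement

namespace H73.RegQ

theorem isRegular_of_injective {p : ℕ} [Fact p.Prime] {G K : Type*} [Group G] [Finite G] [Group K]
    (h : IsRegularPGroup p G) (f : K →* G) (hf : Function.Injective f) : IsRegularPGroup p K := by
  have : Finite K := Finite.of_injective f hf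
  exact isRegular_of_regW (h.1.of_injective f hf) ((regW_of_isRegular h).of_injective f hf)

theorem powerClosure_eq_bot_of_exp' {G : Type*} [Group G] {p k : ℕ} {H : Subgroup G}
    (h : ∀ x ∈ H, x ^ p ^ k = 1) : powerClosure p k H = ⊥ := by
  rw [eq_bot_iff, powerClosure, closure_le]
  rintro _ ⟨x, hx, rfl⟩
  rw [h x hx]
  exact one_mem _

theorem eqPow_aux {p : ℕ} [Fact p.Prime] (k : ℕ) : ∀ (n : ℕ) (G : Type*) [Group G] [Finite G],
    Nat.card G ≤ n → IsRegularPGroup p G → EqPow (p ^ k) G := by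
  intro n
  induction n with
  | zero => intro G _ _ h; exact absurd h (by have := Nat.card_pos (α := G); omega)
  | succ n ih =>
    intro G _ _ hcard hR a b hab
    rcases eq_or_lt_of_le (le_top : closure ({a, b} : Set G) ≤ ⊤) with hK | hK
    swap
    · -- proper subgroup
      have h1 := card_lt_of_lt_top hK
      have h2 := ih ↥(closure ({a, b} : Set G)) (by omega)
        (isRegular_of_injective hR _ (Subgroup.subtype_injective _)) ⟨a, mem_closure_pair_left a b⟩
        ⟨b, mem_closure_pair_right a b⟩ (Subtype.ext hab)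
      simpa using congrArg Subtype.val h2
    by_cases hcomm : IsMulCommutative G
    · have : Commute a⁻¹ b := mul_comm' _ _
      rw [this.mul_pow, inv_pow, hab, inv_mul_cancel]
    have hL : zpowers a ⊔ commutator G < ⊤ := by
      refine lt_top_iff_ne_top.mpr fun h => hcomm ?_
      have h2 := eq_top_of_sup_commutator_eq_top hR.1 h
      refine ⟨⟨fun x y => ?_⟩⟩
      have hx : x ∈ zpowers a := h2 ▸ mem_top x
      have hy : y ∈ zpowers a := h2 ▸ mem_top y
      exact setLike_mul_comm (s := zpowers a) hx hy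
    have hLc := card_lt_of_lt_top hL
    have hPL := ih ↥(zpowers a ⊔ commutator G) (by omega)
        (isRegular_of_injective hR _ (Subgroup.subtype_injective _))
    have hD : commutator G < ⊤ := lt_of_le_of_lt le_sup_right hL
    have hDc := card_lt_of_lt_top hD
    have hPD := ih ↥(commutator G) (by omega)
        (isRegular_of_injective hR _ (Subgroup.subtype_injective _))
    have haL : a ∈ zpowers a ⊔ commutator G := mem_sup_left (mem_zpowers a)
    have hbL : b⁻¹ * a * b ∈ zpowers a ⊔ commutator G := by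
      have : b⁻¹ * a * b = a * ⁅a⁻¹, b⁻¹⁆ := by rw [commutatorElement_def]; group
      rw [this]
      exact mul_mem haL (mem_sup_right (commutator_mem_commutator (mem_top _) (mem_top _)))
    have h1 : a ^ p ^ k = (b⁻¹ * a * b) ^ p ^ k := by
      have : (b⁻¹ * a * b) ^ p ^ k = b⁻¹ * a ^ p ^ k * b := by
        have := conj_pow (i := p ^ k) (a := b⁻¹) (b := a)
        rwa [inv_inv] at this
      rw [this, hab, mul_assoc, ← pow_succ, pow_succ', inv_mul_cancel_left]
    have h2 := hPL ⟨a, haL⟩ ⟨b⁻¹ * a * b, hbL⟩ (Subtype.ext h1)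
    have h3 : ⁅a⁻¹, b⁻¹⁆ ^ p ^ k = 1 := by
      have h4 := congrArg Subtype.val h2
      have h5 : (a⁻¹ * (b⁻¹ * a * b)) ^ p ^ k = 1 := by simpa using h4
      have h6 : ⁅a⁻¹, b⁻¹⁆ = a⁻¹ * (b⁻¹ * a * b) := by rw [commutatorElement_def]; group
      rw [h6, h5]
    have h4 := derived_exp hK h3 hPD
    obtain ⟨c, hc, he⟩ := hR.2 a⁻¹ b k
    rw [closure_pair_inv_left, hK, ← commutator_def, powerClosure_eq_bot_of_exp' h4, mem_bot] at hc
    rw [he, hc, inv_pow, hab, inv_mul_cancel, mul_one]

theorem eqPow {p : ℕ} [Fact p.Prime] {G : Type*} [Group G] [Finite G]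
    (hR : IsRegularPGroup p G) (k : ℕ) : EqPow (p ^ k) G := eqPow_aux k _ G le_rfl hR

/-- `(a⁻¹ b) ^ q = 1` implies `a ^ q = b ^ q`. -/
theorem pow_eq_of_pow_eq_one' {p : ℕ} [Fact p.Prime] {G : Type*} [Group G] [Finite G]
    (hR : IsRegularPGroup p G) (k : ℕ) {a b : G} (h : (a⁻¹ * b) ^ p ^ k = 1) : a ^ p ^ k = b ^ p ^ k := by
  have key : ∀ (K : Type _) [Group K] [Finite K], IsRegularPGroup p K → ∀ u a : K,
      closure ({u, a} : Set K) = ⊤ → u ^ p ^ k = 1 → (a * u) ^ p ^ k = a ^ p ^ k := by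
    intro K _ _ hRK u a hgen hu
    have h1 : (u⁻¹ * (a⁻¹ * u * a)) ^ p ^ k = 1 := by
      apply eqPow hRK k
      have := conj_pow (i := p ^ k) (a := a⁻¹) (b := u)
      rw [inv_inv] at this
      rw [this, hu]; group
    have h3 : ⁅u⁻¹, a⁻¹⁆ ^ p ^ k = 1 := by
      have h6 : ⁅u⁻¹, a⁻¹⁆ = u⁻¹ * (a⁻¹ * u * a) := by rw [commutatorElement_def]; group
      rw [h6, h1]
    have h4 := derived_exp hgen h3 (eqPow (isRegular_of_injective hRK _ (Subgroup.subtype_injective _)) k)
    obtain ⟨c, hc, he⟩ := hRK.2 a u k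
    rw [Set.pair_comm a u, hgen, ← commutator_def, powerClosure_eq_bot_of_exp' h4, mem_bot] at hc
    rw [he, hc, hu, mul_one, mul_one]
  set u := a⁻¹ * b with hu
  have hb : b = a * u := by rw [hu]; group
  set K := closure ({u, a} : Set G) with hK
  have hgen : closure ({⟨u, mem_closure_pair_left u a⟩, ⟨a, mem_closure_pair_right u a⟩} : Set K) = ⊤ := by
    apply Subgroup.map_injective K.subtype_injective
    rw [map_closure_pair, ← MonoidHom.range_eq_map, range_subtype]
    rfl
  have h2 := key K (isRegular_of_injective hR _ (Subgroup.subtype_injective _))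
    ⟨u, mem_closure_pair_left u a⟩ ⟨a, mem_closure_pair_right u a⟩ hgen (Subtype.ext h)
  have h3 := congrArg Subtype.val h2
  rw [hb]
  symm
  simpa using h3

theorem pow_eq_iff {p : ℕ} [Fact p.Prime] {G : Type*} [Group G] [Finite G]
    (hR : IsRegularPGroup p G) (k : ℕ) (a b : G) : a ^ p ^ k = b ^ p ^ k ↔ (a⁻¹ * b) ^ p ^ k = 1 :=
  ⟨eqPow hR k a b, pow_eq_of_pow_eq_one' hR k⟩

end H73.RegQ
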