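import Mathlib
import Cfsg.Agent.Lib.H72.JordanCycle

set_option autoImplicit false

/-! Groups with exactly 21 Sylow `5`-subgroups: the faithful configuration and basic facts. -/

namespace H73.Syl21

open MulAction
open scoped Pointwise

/-- number of fixed points modulo `p` on an invariant set -/
theorem modeq {G Ω : Type*} [Group G] [Finite G] [Finite Ω] [MulAction G Ω] {p : ℕ}
    [Fact p.Prime] (Q : Subgroup G) (hQ : IsPGroup p Q) (S : Set Ω)
    (hS : ∀ g ∈ Q, ∀ s ∈ S, g • s ∈ S) :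
    S.ncard ≡ {s ∈ S | ∀ g ∈ Q, g • s = s}.ncard [MOD p] := by
  classical
  let act : MulAction Q S :=
    { smul := fun g s => ⟨(g : G) • (s : Ω), hS g g.2 s s.2⟩
      one_smul := fun s => Subtype.ext (one_smul G (s : Ω))
      mul_smul := fun g h s => Subtype.ext (mul_smul (g : G) (h : G) (s : Ω)) }
  letI := act
  have h := hQ.card_modEq_card_fixedPoints S
  have h1 : Nat.card S = S.ncard := rfl
  have h2 : Nat.card (fixedPoints Q S) = {s ∈ S | ∀ g ∈ Q, g • s = s}.ncard := by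
    rw [← Nat.card_coe_set_eq]
    refine Nat.card_congr ⟨fun s => ⟨(s : S), (s : S).2, fun g hg => ?_⟩,
      fun s => ⟨⟨(s : Ω), s.2.1⟩, fun g => Subtype.ext (s.2.2 g g.2)⟩, fun s => rfl, fun s => rfl⟩
    exact congrArg Subtype.val (s.2 ⟨g, hg⟩)
  rw [h1, h2] at h
  exact h

/-- the configuration: a group of permutations of 21 points, each point stabilizer has a normal
Sylow `5`-subgroup with a unique fixed point -/
structure Cfg (G Ω : Type*) [Group G] [MulAction G Ω] (P : Ω → Subgroup G) : Prop where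
  fin : Finite G
  card : Nat.card Ω = 21
  faithful : ∀ g : G, (∀ ω : Ω, g • ω = ω) → g = 1
  pg : ∀ ω, IsPGroup 5 (P ω)
  idx : ∀ ω, ¬ 5 ∣ (P ω).index
  conj : ∀ (g : G) (ω : Ω) (x : G), x ∈ P ω → g * x * g⁻¹ ∈ P (g • ω)
  fixes : ∀ ω, ∀ g ∈ P ω, g • ω = ω
  only : ∀ ω β, (∀ g ∈ P ω, g • β = β) → β = ω

namespace Cfg

variable {G Ω : Type*} [Group G] [MulAction G Ω] {P : Ω → Subgroup G}

theorem finite_Ω (h : Cfg G Ω P) : Finite Ω :=
  Nat.finite_of_card_ne_zero (by rw [h.card]; norm_num)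

/-- the Sylow subgroup -/
noncomputable def syl (h : Cfg G Ω P) (ω : Ω) : Sylow 5 G :=
  haveI := h.fin
  haveI : Fact (Nat.Prime 5) := ⟨by norm_num⟩
  (h.pg ω).toSylow (h.idx ω)

theorem coe_syl (h : Cfg G Ω P) (ω : Ω) : (h.syl ω : Subgroup G) = P ω := rfl

theorem conj_mem_iff (h : Cfg G Ω P) (g : G) (ω : Ω) (x : G) :
    g * x * g⁻¹ ∈ P (g • ω) ↔ x ∈ P ω := by
  refine ⟨fun hx => ?_, h.conj g ω x⟩
  have := h.conj g⁻¹ _ _ hx
  rw [inv_smul_smul] at this
  have e : g⁻¹ * (g * x * g⁻¹) * g⁻¹⁻¹ = x := by group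
  rwa [e] at this

theorem mem_normalizer_iff (h : Cfg G Ω P) (g : G) (ω : Ω) :
    g ∈ Subgroup.normalizer (P ω : Set G) ↔ g • ω = ω := by
  rw [Subgroup.mem_normalizer_iff]
  constructor
  · intro hg
    apply h.only
    intro x hx
    have h1 : g⁻¹ * x * g ∈ P ω := by
      rw [hg]
      have e : g * (g⁻¹ * x * g) * g⁻¹ = x := by group
      rwa [e]
    have h2 := h.fixes ω _ h1
    rw [mul_smul, mul_smul, inv_smul_eq_iff] at h2
    exact h2
  · intro hg x
    have := h.conj_mem_iff g ω x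
    rw [hg] at this
    exact this.symm

/-- a `5`-element fixing `ω` lies in `P ω` -/
theorem mem_of_fix (h : Cfg G Ω P) {x : G} {k : ℕ} (hx : x ^ 5 ^ k = 1) {ω : Ω}
    (hω : x • ω = ω) : x ∈ P ω := by
  haveI := h.fin
  haveI : Fact (Nat.Prime 5) := ⟨by norm_num⟩
  have hz : IsPGroup 5 (Subgroup.zpowers x) := by
    rw [IsPGroup.iff_card]
    rw [Nat.card_zpowers]
    have := orderOf_dvd_of_pow_eq_one hx
    obtain ⟨j, -, hj⟩ := (Nat.dvd_prime_pow (by norm_num)).1 this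
    exact ⟨j, hj⟩
  have h1 := hz.inf_normalizer_sylow (h.syl ω)
  have h2 : x ∈ Subgroup.zpowers x ⊓ Subgroup.normalizer (h.syl ω) := by
    refine ⟨Subgroup.mem_zpowers x, ?_⟩
    exact (h.mem_normalizer_iff x ω).2 hω
  rw [h1] at h2
  exact h2.2

/-- a set invariant under `P ω` containing `ω` has cardinality `1` modulo `5` -/
theorem ncard_of_mem (h : Cfg G Ω P) {S : Set Ω} {ω : Ω} (hω : ω ∈ S)
    (hS : ∀ g ∈ P ω, ∀ s ∈ S, g • s ∈ S) : S.ncard % 5 = 1 := by
  haveI := h.fin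
  haveI := h.finite_Ω
  haveI : Fact (Nat.Prime 5) := ⟨by norm_num⟩
  have h1 := modeq (P ω) (h.pg ω) S hS
  have h2 : {s ∈ S | ∀ g ∈ P ω, g • s = s} = {ω} := by
    ext s
    simp only [Set.mem_setOf_eq, Set.mem_singleton_iff]
    constructor
    · rintro ⟨-, h2⟩; exact h.only ω s h2
    · rintro rfl; exact ⟨hω, h.fixes s⟩
  rw [h2, Set.ncard_singleton] at h1
  exact h1

/-- a set invariant under `P ω` not containing `ω` has cardinality `0` modulo `5` -/
theorem ncard_of_notMem (h : Cfg G Ω P) {S : Set Ω} {ω : Ω} (hω : ω ∉ S)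
    (hS : ∀ g ∈ P ω, ∀ s ∈ S, g • s ∈ S) : S.ncard % 5 = 0 := by
  haveI := h.fin
  haveI := h.finite_Ω
  haveI : Fact (Nat.Prime 5) := ⟨by norm_num⟩
  have h1 := modeq (P ω) (h.pg ω) S hS
  have h2 : {s ∈ S | ∀ g ∈ P ω, g • s = s} = ∅ := by
    ext s
    simp only [Set.mem_setOf_eq, Set.mem_empty_iff_false, iff_false]
    rintro ⟨h2, h3⟩
    rw [h.only ω s h3] at h2
    exact hω h2
  rw [h2, Set.ncard_empty] at h1
  exact h1

/-- a subgroup containing `P δ` for all `δ ∈ Δ` and preserving `Δ` is transitive on `Δ` -/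
theorem trans_on (h : Cfg G Ω P) (H : Subgroup G) (Δ : Set Ω)
    (hH : ∀ g ∈ H, ∀ δ ∈ Δ, g • δ ∈ Δ) (hP : ∀ δ ∈ Δ, P δ ≤ H) {α β : Ω} (hα : α ∈ Δ)
    (hβ : β ∈ Δ) : ∃ g ∈ H, g • α = β := by
  by_contra hne
  push_neg at hne
  set O : Set Ω := {γ | ∃ g ∈ H, g • α = γ} with hO
  have hinv : ∀ g ∈ H, ∀ s ∈ O, g • s ∈ O := by
    rintro g hg s ⟨k, hk, rfl⟩
    exact ⟨g * k, H.mul_mem hg hk, mul_smul g k α⟩
  have h1 : O.ncard % 5 = 1 := h.ncard_of_mem (ω := α) ⟨1, H.one_mem, one_smul _ _⟩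
    (fun g hg s hs => hinv g (hP α hα hg) s hs)
  have h2 : O.ncard % 5 = 0 := h.ncard_of_notMem (ω := β) (by
    rintro ⟨g, hg, hgα⟩; exact hne g hg hgα) (fun g hg s hs => hinv g (hP β hβ hg) s hs)
  omega

theorem isPretransitive (h : Cfg G Ω P) : IsPretransitive G Ω := by
  constructor
  intro α β
  obtain ⟨g, -, hg⟩ := h.trans_on ⊤ Set.univ (fun _ _ _ _ => Set.mem_univ _) (fun _ _ => le_top)
    (Set.mem_univ α) (Set.mem_univ β)
  exact ⟨g, hg⟩

theorem isPreprimitive (h : Cfg G Ω P) : IsPreprimitive G Ω := by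
  haveI := h.isPretransitive
  haveI := h.finite_Ω
  haveI := h.fin
  refine ⟨fun {B} hB => ?_⟩
  by_cases hne : B.Nonempty
  · obtain ⟨ω, hω⟩ := hne
    have h1 : B.ncard % 5 = 1 := by
      apply h.ncard_of_mem hω
      intro g hg s hs
      have : g • B = B := by
        rw [isBlock_iff_smul_eq_of_mem] at hB
        exact hB hω (by rw [h.fixes ω g hg]; exact hω)
      rw [← this]
      exact Set.smul_mem_smul_set hs
    have h2 : B.ncard ∣ 21 := by
      have := hB.ncard_dvd_card ⟨ω, hω⟩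
      rwa [h.card] at this
    have h3 : B.ncard = 1 ∨ B.ncard = 21 := by
      have h4 : B.ncard ≤ 21 := Nat.le_of_dvd (by norm_num) h2
      generalize B.ncard = n at h1 h2 h4
      have : n = 1 ∨ n = 6 ∨ n = 11 ∨ n = 16 ∨ n = 21 := by omega
      rcases this with rfl | rfl | rfl | rfl | rfl <;> revert h2 <;> decide
    rcases h3 with h3 | h3
    · left
      exact Set.ncard_le_one_iff_subsingleton.1 h3.le
    · right
      apply Set.eq_of_subset_of_ncard_le (Set.subset_univ B)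
      rw [h3, Set.ncard_univ, h.card]
  · left
    rw [Set.not_nonempty_iff_eq_empty] at hne
    rw [hne]; exact Set.subsingleton_empty

/-- the action restricted to a subgroup containing all `P ω` -/
theorem restrict (h : Cfg G Ω P) (H : Subgroup G) (hP : ∀ ω, P ω ≤ H) :
    Cfg H Ω (fun ω => (P ω).subgroupOf H) := by
  haveI := h.fin
  refine ⟨inferInstance, h.card, ?_, ?_, ?_, ?_, ?_, ?_⟩
  · intro g hg
    exact Subtype.ext (h.faithful g hg)
  · intro ω
    exact (h.pg ω).comap_subtype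
  · intro ω hd
    apply h.idx ω
    have : (P ω).relIndex H * H.index = (P ω).index := Subgroup.relIndex_mul_index (hP ω)
    rw [← this]
    exact Dvd.dvd.mul_right hd _
  · intro g ω x hx
    exact h.conj g ω x hx
  · intro ω g hg
    exact h.fixes ω g hg
  · intro ω β hβ
    apply h.only
    intro g hg
    exact hβ ⟨g, hP ω hg⟩ hg

/-- Subgroups of index prime to 5 that are normal contain all `P ω` -/
theorem le_of_normal (h : Cfg G Ω P) (H : Subgroup G) [H.Normal] (hH : ¬ 5 ∣ H.index) (ω : Ω) :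
    P ω ≤ H := by
  haveI := h.fin
  haveI : Fact (Nat.Prime 5) := ⟨by norm_num⟩
  intro x hx
  have h1 : (QuotientGroup.mk' H x) = 1 := by
    obtain ⟨k, hk⟩ := h.pg ω ⟨x, hx⟩
    have hk' : x ^ 5 ^ k = 1 := congrArg Subtype.val hk
    have h2 : orderOf (QuotientGroup.mk' H x) ∣ 5 ^ k := by
      apply orderOf_dvd_of_pow_eq_one
      rw [← map_pow, hk', map_one]
    have h3 : orderOf (QuotientGroup.mk' H x) ∣ H.index := by
      rw [Subgroup.index_eq_card]
      exact orderOf_dvd_natCard _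
    have h4 : Nat.Coprime (5 ^ k) H.index := by
      apply Nat.Coprime.pow_left
      exact (Nat.Prime.coprime_iff_not_dvd (by norm_num)).2 hH
    have h5 := Nat.dvd_gcd h2 h3
    rw [h4] at h5
    rw [← orderOf_eq_one_iff]
    exact Nat.dvd_one.1 h5
  rwa [← QuotientGroup.ker_mk' H]

end Cfg

end H73.Syl21
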