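import Cfsg.Agent.Lib.H73.Syl21a

set_option autoImplicit false

/-! Groups with exactly 21 Sylow `5`-subgroups: orbits of the Sylow subgroups, and the case of a
Sylow subgroup of order at least 25. -/

namespace H73.Syl21

open MulAction
open scoped Pointwise

namespace Cfg

variable {G Ω : Type*} [Group G] [MulAction G Ω] {P : Ω → Subgroup G}

theorem card_P (h : Cfg G Ω P) (ω : Ω) : ∃ k, Nat.card (P ω) = 5 ^ k := by
  haveI := h.fin
  haveI : Fact (Nat.Prime 5) := ⟨by norm_num⟩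
  exact (IsPGroup.iff_card.1 (h.pg ω))

/-- orbits of `P ω` outside `ω` have exactly five elements -/
theorem index_stab (h : Cfg G Ω P) {ω β : Ω} (hβ : β ≠ ω) : (stabilizer (P ω) β).index = 5 := by
  haveI := h.fin
  haveI := h.finite_Ω
  haveI : Fact (Nat.Prime 5) := ⟨by norm_num⟩
  obtain ⟨k, hk⟩ := h.card_P ω
  have h1 : (stabilizer (P ω) β).index ∣ 5 ^ k := by
    rw [← hk]; exact Subgroup.index_dvd_card _
  obtain ⟨j, -, hj⟩ := (Nat.dvd_prime_pow (by norm_num)).1 h1
  have h2 : (orbit (P ω) β).ncard = (stabilizer (P ω) β).index := by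
    rw [MulAction.index_stabilizer, ]
  have h3 : (orbit (P ω) β).ncard < 21 := by
    rw [← h.card, ← Set.ncard_univ]
    refine Set.ncard_lt_ncard ?_ (Set.toFinite _)
    refine ⟨Set.subset_univ _, fun hc => ?_⟩
    have : ω ∈ orbit (P ω) β := hc (Set.mem_univ ω)
    obtain ⟨g, hg⟩ := this
    have h5 : (g : G) • β = ω := hg
    have h6 : (g : G) • ω = ω := h.fixes ω g g.2
    have := smul_left_cancel (g : G) (h5.trans h6.symm)
    exact hβ this
  have h4 : (orbit (P ω) β).ncard ≠ 1 := by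
    intro hc
    rw [Set.ncard_eq_one] at hc
    obtain ⟨a, ha⟩ := hc
    apply hβ
    apply h.only
    intro g hg
    have h5 : β ∈ orbit (P ω) β := mem_orbit_self β
    have h6 : g • β ∈ orbit (P ω) β := ⟨⟨g, hg⟩, rfl⟩
    rw [ha] at h5 h6
    rw [Set.mem_singleton_iff] at h5 h6
    rw [h6, ← h5]
  rw [h2, hj] at h3 h4
  rw [hj]
  have : j = 1 := by
    rcases j with _ | _ | j
    · simp at h4
    · rfl
    · exfalso
      have : 5 ^ (j + 1 + 1) ≥ 25 := by
        have := Nat.pow_le_pow_right (show 0 < 5 by norm_num) (show 2 ≤ j + 1 + 1 by omega)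
        simpa using this
      omega
  rw [this]; norm_num

theorem normal_stab (h : Cfg G Ω P) {ω β : Ω} (hβ : β ≠ ω) : (stabilizer (P ω) β).Normal := by
  haveI := h.fin
  obtain ⟨k, hk⟩ := h.card_P ω
  apply Subgroup.normal_of_index_eq_minFac_card
  rw [h.index_stab hβ, hk]
  have hk0 : k ≠ 0 := by
    rintro rfl
    have h1 : (stabilizer (P ω) β).index ∣ 1 := by
      rw [pow_zero] at hk
      rw [← hk]; exact Subgroup.index_dvd_card _
    rw [h.index_stab hβ] at h1
    norm_num at h1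
  rw [Nat.Prime.pow_minFac (by norm_num) hk0]

theorem smul_pow_five (h : Cfg G Ω P) {ω : Ω} {x : G} (hx : x ∈ P ω) (β : Ω) :
    x ^ 5 • β = β := by
  haveI := h.fin
  by_cases hβ : β = ω
  · rw [hβ]; exact h.fixes ω _ ((P ω).pow_mem hx 5)
  · haveI := h.normal_stab hβ
    have := Subgroup.pow_index_mem (stabilizer (P ω) β) ⟨x, hx⟩
    rw [h.index_stab hβ] at this
    exact this

theorem smul_comm' (h : Cfg G Ω P) {ω : Ω} {x y : G} (hx : x ∈ P ω) (hy : y ∈ P ω) (β : Ω) :
    (x * y) • β = (y * x) • β := by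
  haveI := h.fin
  haveI : Fact (Nat.Prime 5) := ⟨by norm_num⟩
  by_cases hβ : β = ω
  · rw [hβ, h.fixes ω _ ((P ω).mul_mem hx hy), h.fixes ω _ ((P ω).mul_mem hy hx)]
  · haveI := h.normal_stab hβ
    have hc : Nat.card (P ω ⧸ stabilizer (P ω) β) = 5 := by
      rw [← Subgroup.index_eq_card]; exact h.index_stab hβ
    haveI := isCyclic_of_prime_card hc
    letI := IsCyclic.commGroup (α := P ω ⧸ stabilizer (P ω) β)
    have h1 : (QuotientGroup.mk (⟨x, hx⟩ * ⟨y, hy⟩) : P ω ⧸ stabilizer (P ω) β)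
        = QuotientGroup.mk (⟨y, hy⟩ * ⟨x, hx⟩) := by
      rw [QuotientGroup.mk_mul, QuotientGroup.mk_mul]
      exact mul_comm _ _
    rw [QuotientGroup.eq] at h1
    have h2 : ((⟨x, hx⟩ * ⟨y, hy⟩ : P ω)⁻¹ * (⟨y, hy⟩ * ⟨x, hx⟩)) • β = β := h1
    have h3 : ((x * y)⁻¹ * (y * x)) • β = β := h2
    rw [mul_smul, inv_smul_eq_iff] at h3
    exact h3.symm

theorem pow_five (h : Cfg G Ω P) {ω : Ω} {x : G} (hx : x ∈ P ω) : x ^ 5 = 1 :=
  h.faithful _ (h.smul_pow_five hx)

theorem comm (h : Cfg G Ω P) {ω : Ω} {x y : G} (hx : x ∈ P ω) (hy : y ∈ P ω) :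
    x * y = y * x := by
  have : (y * x)⁻¹ * (x * y) = 1 := by
    apply h.faithful
    intro β
    rw [mul_smul, inv_smul_eq_iff]
    exact h.smul_comm' hx hy β
  rwa [inv_mul_eq_one, eq_comm] at this

theorem ncard_orbit (h : Cfg G Ω P) {ω β : Ω} (hβ : β ≠ ω) : (orbit (P ω) β).ncard = 5 := by
  rw [← h.index_stab hβ, MulAction.index_stabilizer]

theorem notMem_orbit (h : Cfg G Ω P) {ω β : Ω} (hβ : β ≠ ω) : ω ∉ orbit (P ω) β := by
  rintro ⟨g, hg⟩
  have h5 : (g : G) • β = ω := hg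
  have h6 : (g : G) • ω = ω := h.fixes ω g g.2
  exact hβ (smul_left_cancel (g : G) (h5.trans h6.symm))

/-- an element of `P ω` moving `β` is transitive on the `P ω`-orbit of `β` -/
theorem exists_zpow (h : Cfg G Ω P) {ω β γ : Ω} {x : G} (hx : x ∈ P ω)
    (hxβ : x • β ≠ β) (hγ : γ ∈ orbit (P ω) β) : ∃ i : ℤ, x ^ i • β = γ := by
  haveI := h.fin
  haveI := h.finite_Ω
  haveI : Fact (Nat.Prime 5) := ⟨by norm_num⟩
  have hβ : β ≠ ω := by rintro rfl; exact hxβ (h.fixes _ x hx)
  set Z : Set Ω := {δ | ∃ i : ℤ, x ^ i • β = δ} with hZ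
  have hsub : Z ⊆ orbit (P ω) β := by
    rintro δ ⟨i, rfl⟩
    exact ⟨⟨x ^ i, (P ω).zpow_mem hx i⟩, rfl⟩
  have hQ : IsPGroup 5 (Subgroup.zpowers x) := by
    have : Subgroup.zpowers x ≤ P ω := by
      rw [Subgroup.zpowers_le]; exact hx
    exact (h.pg ω).to_le this
  have h1 := modeq (Subgroup.zpowers x) hQ Z (by
    rintro g ⟨j, rfl⟩ s ⟨i, rfl⟩
    exact ⟨j + i, by rw [zpow_add, mul_smul]⟩)
  have h2 : {s ∈ Z | ∀ g ∈ Subgroup.zpowers x, g • s = s} = ∅ := by
    ext s
    simp only [Set.mem_setOf_eq, Set.mem_empty_iff_false, iff_false]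
    rintro ⟨⟨i, rfl⟩, h3⟩
    apply hxβ
    have h4 := h3 x (Subgroup.mem_zpowers x)
    rw [← mul_smul, ← zpow_one_add, add_comm, zpow_add, zpow_one, mul_smul] at h4
    exact smul_left_cancel _ h4
  rw [h2, Set.ncard_empty] at h1
  have h3 : Z.Nonempty := ⟨β, 0, by rw [zpow_zero, one_smul]⟩
  have h4 : 0 < Z.ncard := (Set.ncard_pos (Set.toFinite Z)).2 h3
  have h5 : Z = orbit (P ω) β := by
    apply Set.eq_of_subset_of_ncard_le hsub
    rw [h.ncard_orbit hβ]
    have h1' : Z.ncard % 5 = 0 := h1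
    omega
  have : γ ∈ Z := by rw [h5]; exact hγ
  exact this

/-- image in the alternating group is impossible -/
theorem alt_false (h : Cfg G Ω P) [Fintype Ω] [DecidableEq Ω]
    (hA : alternatingGroup Ω ≤ (toPermHom G Ω).range) : False := by
  haveI := h.fin
  have hcard : Fintype.card Ω = 21 := by rw [← Nat.card_eq_fintype_card]; exact h.card
  obtain ⟨ω⟩ : Nonempty Ω := Fintype.card_pos_iff.1 (by rw [hcard]; norm_num)
  haveI : Nontrivial Ω := Fintype.one_lt_card_iff_nontrivial.1 (by rw [hcard]; norm_num)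
  obtain ⟨a, ha⟩ := exists_ne ω
  have ho := h.ncard_orbit ha
  have haO : a ∈ orbit (P ω) a := mem_orbit_self a
  obtain ⟨b, hb, hba⟩ := Set.exists_ne_of_one_lt_ncard (by rw [ho]; norm_num) a
  have hωO := h.notMem_orbit ha
  have h6 : (insert ω (orbit (P ω) a)).ncard = 6 := by
    rw [Set.ncard_insert_of_notMem hωO (Set.toFinite _), ho]
  obtain ⟨c, hc⟩ : ∃ c, c ∉ insert ω (orbit (P ω) a) := by
    by_contra hne
    push_neg at hne
    have : insert ω (orbit (P ω) a) = Set.univ := Set.eq_univ_of_forall hne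
    rw [this, Set.ncard_univ, h.card] at h6
    omega
  have hcω : c ≠ ω := fun hc' => hc (by rw [hc']; exact Set.mem_insert _ _)
  have hcO : c ∉ orbit (P ω) a := fun hc' => hc (Set.mem_insert_of_mem _ hc')
  have hca : c ≠ a := fun hc' => hcO (by rw [hc']; exact haO)
  have hcb : c ≠ b := fun hc' => hcO (by rw [hc']; exact hb)
  have hbω : b ≠ ω := by rintro rfl; exact hωO hb
  have hσ : Equiv.swap a b * Equiv.swap b c ∈ alternatingGroup Ω := by
    rw [Equiv.Perm.mem_alternatingGroup, Equiv.Perm.sign_mul, Equiv.Perm.sign_swap hba.symm,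
      Equiv.Perm.sign_swap hcb.symm]
    rfl
  obtain ⟨g, hg⟩ := hA hσ
  have hg' : ∀ x, g • x = (Equiv.swap a b * Equiv.swap b c) x := by
    intro x; rw [← hg]; rfl
  have hgω : g • ω = ω := by
    rw [hg', Equiv.Perm.mul_apply, Equiv.swap_apply_of_ne_of_ne hbω.symm hcω.symm,
      Equiv.swap_apply_of_ne_of_ne ha.symm hbω.symm]
  have hga : g • a = b := by
    rw [hg', Equiv.Perm.mul_apply, Equiv.swap_apply_of_ne_of_ne hba.symm hca.symm,
      Equiv.swap_apply_left]
  have hgb : g • b = c := by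
    rw [hg', Equiv.Perm.mul_apply, Equiv.swap_apply_left,
      Equiv.swap_apply_of_ne_of_ne hca hcb]
  obtain ⟨⟨p, hp⟩, hpa⟩ := hb
  have hpa' : p • a = b := hpa
  have h7 := h.conj g ω p hp
  rw [hgω] at h7
  have h8 : (g * p * g⁻¹) • b = c := by
    rw [← hga, ← mul_smul]
    have e : g * p * g⁻¹ * g = g * p := by group
    rw [e, mul_smul, hpa', hgb]
  apply hcO
  refine ⟨⟨g * p * g⁻¹, h7⟩ * ⟨p, hp⟩, ?_⟩
  change ((g * p * g⁻¹) * p) • a = c
  rw [mul_smul, hpa', h8]

/-- no element of prime order `p` moving fewer than `2p` points, `p ≤ 18` -/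
theorem jordan_false (h : Cfg G Ω P) {g : G} {p : ℕ} (hp : p.Prime) (hg : orderOf g = p)
    (hp' : p + 3 ≤ 21) {S : Set Ω} (hS : ∀ β, β ∉ S → g • β = β) (hS' : S.ncard < 2 * p) :
    False := by
  classical
  haveI := h.fin
  haveI := h.finite_Ω
  letI := Fintype.ofFinite Ω
  set σ : Equiv.Perm Ω := toPermHom G Ω g with hσ
  have hσv : ∀ x, σ x = g • x := fun x => rfl
  have hinj : Function.Injective (toPermHom G Ω) := by
    rw [injective_iff_map_eq_one]
    intro x hx
    apply h.faithful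
    intro β
    have := congrArg (fun τ : Equiv.Perm Ω => τ β) hx
    simpa using this
  have ho : orderOf σ = p := by rw [hσ, orderOf_injective _ hinj, hg]
  have hsub : (σ.support : Set Ω) ⊆ S := by
    intro β hβ
    by_contra hc
    rw [Finset.mem_coe, Equiv.Perm.mem_support] at hβ
    exact hβ (hS β hc)
  have hc1 : σ.support.card < 2 * orderOf σ := by
    rw [ho]
    refine lt_of_le_of_lt ?_ hS'
    rw [← Set.ncard_coe_finset]
    exact Set.ncard_le_ncard hsub (Set.toFinite S)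
  have hcyc : σ.IsCycle := Equiv.Perm.isCycle_of_prime_order (by rw [ho]; exact hp) hc1
  have hcs : σ.support.card = p := by rw [← hcyc.orderOf, ho]
  have hprim : IsPreprimitive (toPermHom G Ω).range Ω := by
    haveI := h.isPreprimitive
    let f : Ω →ₑ[(toPermHom G Ω).rangeRestrict] Ω :=
      { toFun := id
        map_smul' := fun g x => rfl }
    exact (isPreprimitive_congr (f := f) (toPermHom G Ω).rangeRestrict_surjective
      Function.bijective_id).1 h.isPreprimitive
  have hcard : Fintype.card Ω = 21 := by rw [← Nat.card_eq_fintype_card]; exact h.card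
  exact h.alt_false (H72.JordanCycle.jordan_cycle hprim σ hcyc (by rw [hcs]; exact hp)
    (by rw [hcs, hcard]; exact hp') ⟨g, rfl⟩)

end Cfg

end H73.Syl21
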