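import Cfsg.Agent.Lib.H73.Syl21b

set_option autoImplicit false

/-! Groups with exactly 21 Sylow `5`-subgroups: the Sylow subgroup has order 5 in the faithful
configuration. -/

namespace H73.Syl21

open MulAction
open scoped Pointwise

namespace Cfg

variable {G Ω : Type*} [Group G] [MulAction G Ω] {P : Ω → Subgroup G}

instance fact_five : Fact (Nat.Prime 5) := ⟨by norm_num⟩

theorem stab_P_of_five (h : Cfg G Ω P) {D : Subgroup G} (hD : ¬ 5 ∣ Nat.card D) {z : G}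
    (hz : z ∈ D) (hz5 : z ^ 5 = 1) : z = 1 := by
  haveI := h.fin
  have h1 : orderOf z ∣ 5 := orderOf_dvd_of_pow_eq_one hz5
  have h2 : orderOf z ∣ Nat.card D := by
    rw [← Subgroup.orderOf_mk z hz]
    exact orderOf_dvd_natCard _
  rcases (Nat.dvd_prime (by norm_num)).1 h1 with h3 | h3
  · exact orderOf_eq_one_iff.1 h3
  · rw [h3] at h2; exact absurd h2 hD

theorem case_six (h : Cfg G Ω P) {x : G} (hx1 : x ≠ 1) (hx5 : x ^ 5 = 1)
    (h6 : {δ : Ω | x • δ = δ}.ncard = 6) : False := by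
  haveI := h.fin
  haveI := h.finite_Ω
  set Δ : Set Ω := {δ : Ω | x • δ = δ} with hΔ
  have hxo : orderOf x = 5 := orderOf_eq_prime hx5 hx1
  have hxP : ∀ δ ∈ Δ, x ∈ P δ := fun δ hδ => h.mem_of_fix (k := 1) (by simpa using hx5) hδ
  have hcx : ∀ δ ∈ Δ, ∀ p ∈ P δ, p * x = x * p := fun δ hδ p hp => h.comm hp (hxP δ hδ)
  have hpΔ : ∀ g : G, g * x = x * g → ∀ β ∈ Δ, g • β ∈ Δ := by
    intro g hg β hβ
    change x • g • β = g • β
    rw [← mul_smul, ← hg, mul_smul, show x • β = β from hβ]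
  have hpΔ' : ∀ g : G, g * x = x * g → ∀ β, β ∉ Δ → g • β ∉ Δ := by
    intro g hg β hβ hc
    apply hβ
    have k1 : Commute g x := hg
    have h1 := hpΔ g⁻¹ k1.inv_left _ hc
    rwa [inv_smul_smul] at h1
  -- the subgroup D
  set D : Subgroup G := Subgroup.centralizer {x} ⊓ fixingSubgroup G Δᶜ with hDdef
  have hDmem : ∀ g : G, g ∈ D ↔ g * x = x * g ∧ ∀ β, β ∉ Δ → g • β = β := by
    intro g
    rw [hDdef, Subgroup.mem_inf, Subgroup.mem_centralizer_singleton_iff, mem_fixingSubgroup_iff]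
    simp only [Set.mem_compl_iff]
  -- 5 ∤ |D|
  have hD5 : ¬ 5 ∣ Nat.card D := by
    intro hd
    haveI : Fact (Nat.Prime 5) := ⟨by norm_num⟩
    obtain ⟨y, hy⟩ := exists_prime_orderOf_dvd_card' (G := D) 5 hd
    have hyo : orderOf (y : G) = 5 := by rw [Subgroup.orderOf_coe, hy]
    exact h.jordan_false (by norm_num) hyo (by norm_num) (S := Δ)
      (fun β hβ => ((hDmem y).1 y.2).2 β hβ) (by rw [h6]; norm_num)
  -- P δ normalizes D
  have hnorm : ∀ g : G, g * x = x * g → ∀ y ∈ D, g * y * g⁻¹ ∈ D := by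
    intro g hg y hy
    have hginv : g⁻¹ * x = x * g⁻¹ := by
      have h1 : g⁻¹ * (g * x) * g⁻¹ = g⁻¹ * (x * g) * g⁻¹ := by rw [hg]
      have e1 : g⁻¹ * (g * x) * g⁻¹ = x * g⁻¹ := by group
      have e2 : g⁻¹ * (x * g) * g⁻¹ = g⁻¹ * x := by group
      rw [e1, e2] at h1; exact h1.symm
    rw [hDmem] at hy ⊢
    refine ⟨?_, fun β hβ => ?_⟩
    · calc g * y * g⁻¹ * x = g * y * (g⁻¹ * x) := by group
        _ = g * y * (x * g⁻¹) := by rw [hginv]
        _ = g * (y * x) * g⁻¹ := by group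
        _ = g * (x * y) * g⁻¹ := by rw [hy.1]
        _ = (g * x) * y * g⁻¹ := by group
        _ = (x * g) * y * g⁻¹ := by rw [hg]
        _ = x * (g * y * g⁻¹) := by group
    · rw [mul_smul, mul_smul, hy.2 _ (hpΔ' g⁻¹ hginv β hβ), smul_inv_smul]
  -- orbit of P δ on Δ \ δ
  have horb : ∀ δ ∈ Δ, ∀ β ∈ Δ, β ≠ δ → ∀ γ ∈ Δ, γ ≠ δ → ∃ p ∈ P δ, p • β = γ := by
    intro δ hδ β hβ hβδ γ hγ hγδ
    have h1 : orbit (P δ) β ⊆ Δ \ {δ} := by
      rintro z ⟨g, rfl⟩
      refine ⟨hpΔ g (hcx δ hδ g g.2) β hβ, fun hc => ?_⟩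
      rw [Set.mem_singleton_iff] at hc
      have h2 : (g : G) • β = δ := hc
      exact hβδ (smul_left_cancel (g : G) (h2.trans (h.fixes δ g g.2).symm))
    have h2 : orbit (P δ) β = Δ \ {δ} := by
      apply Set.eq_of_subset_of_ncard_le h1
      rw [h.ncard_orbit hβδ, Set.ncard_diff_singleton_of_mem hδ, h6]
    have h3 : γ ∈ orbit (P δ) β := by rw [h2]; exact ⟨hγ, hγδ⟩
    obtain ⟨g, hg⟩ := h3
    exact ⟨g, g.2, hg⟩
  -- commutators lie in D
  have hcomD : ∀ δ ∈ Δ, ∀ δ' ∈ Δ, ∀ p ∈ P δ, ∀ p' ∈ P δ', (p' * p)⁻¹ * (p * p') ∈ D := by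
    intro δ hδ δ' hδ' p hp p' hp'
    have c1 := hcx δ hδ p hp
    have c2 := hcx δ' hδ' p' hp'
    have k1 : Commute p x := c1
    have k2 : Commute p' x := c2
    rw [hDmem]
    refine ⟨((k2.mul_left k1).inv_left.mul_left (k1.mul_left k2)), fun β hβ => ?_⟩
    rw [mul_smul, inv_smul_eq_iff]
    have hxβ : x • β ≠ β := hβ
    obtain ⟨i, hi⟩ := h.exists_zpow (hxP δ hδ) hxβ (γ := p • β) ⟨⟨p, hp⟩, rfl⟩
    obtain ⟨j, hj⟩ := h.exists_zpow (hxP δ' hδ') hxβ (γ := p' • β) ⟨⟨p', hp'⟩, rfl⟩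
    have m1 : p * x ^ j = x ^ j * p := (k1.zpow_right j)
    have m2 : p' * x ^ i = x ^ i * p' := (k2.zpow_right i)
    rw [mul_smul, ← hj, ← mul_smul, m1, mul_smul, ← hi, mul_smul p' p, ← hi, ← mul_smul p', m2,
      mul_smul, ← hj, ← mul_smul, ← mul_smul, ← zpow_add, ← zpow_add, add_comm]
  -- two points of Δ
  obtain ⟨α, hα⟩ : Δ.Nonempty := by
    rw [← Set.ncard_pos (Set.toFinite Δ), h6]; norm_num
  obtain ⟨α', hα', hαα'⟩ := Set.exists_ne_of_one_lt_ncard (s := Δ) (by rw [h6]; norm_num) α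
  -- D ≠ 1
  obtain ⟨y0, hy0D, hy01⟩ : ∃ y ∈ D, y ≠ 1 := by
    by_contra hne
    push_neg at hne
    apply hαα'
    symm
    apply h.only
    intro p' hp'
    rw [← h.mem_normalizer_iff]
    rw [Subgroup.mem_normalizer_iff]
    have hcc : ∀ p ∈ P α, p' * p = p * p' := by
      intro p hp
      have := hne _ (hcomD α hα α' hα' p hp p' hp')
      rwa [inv_mul_eq_one] at this
    intro p
    constructor
    · intro hp
      rw [hcc p hp, mul_inv_cancel_right]; exact hp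
    · intro hp
      have h1 := hcc _ hp
      have h2 : p' * p * p'⁻¹ = p := by
        have h3 : p'⁻¹ * (p' * (p' * p * p'⁻¹)) = p'⁻¹ * (p' * p * p'⁻¹ * p') := by rw [h1]
        have e1 : p'⁻¹ * (p' * (p' * p * p'⁻¹)) = p' * p * p'⁻¹ := by group
        have e2 : p'⁻¹ * (p' * p * p'⁻¹ * p') = p := by group
        rw [e1, e2] at h3; exact h3
      rwa [h2] at hp
  -- stabilizers in D are trivial
  have hstab : ∀ δ ∈ Δ, ∀ y ∈ D, y • δ = δ → y = 1 := by
    intro δ hδ y hy hyδ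
    have hyc := ((hDmem y).1 hy)
    have hcomm : ∀ p ∈ P δ, y * p = p * y := by
      intro p hp
      have h1 : y * p * y⁻¹ ∈ P δ := by
        have := h.conj y δ p hp
        rwa [hyδ] at this
      have h2 : y * p * y⁻¹ * p⁻¹ ∈ P δ := (P δ).mul_mem h1 ((P δ).inv_mem hp)
      have h3 : y * (p * y⁻¹ * p⁻¹) ∈ D :=
        D.mul_mem hy (hnorm p (hcx δ hδ p hp) _ (D.inv_mem hy))
      have e : y * p * y⁻¹ * p⁻¹ = y * (p * y⁻¹ * p⁻¹) := by group
      rw [← e] at h3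
      have h4 := h.stab_P_of_five hD5 h3 (h.pow_five h2)
      rw [mul_inv_eq_one, mul_inv_eq_iff_eq_mul] at h4
      exact h4
    apply h.stab_P_of_five hD5 hy
    apply h.faithful
    intro β
    by_cases hβ : β ∈ Δ
    · by_cases hβδ : β = δ
      · have : ∀ n : ℕ, y ^ n • δ = δ := by
          intro n
          induction n with
          | zero => rw [pow_zero, one_smul]
          | succ n ih => rw [pow_succ, mul_smul, hyδ, ih]
        rw [hβδ, this]
      · have hyβ : y • β ≠ δ := by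
          intro hc
          exact hβδ (smul_left_cancel y (hc.trans hyδ.symm))
        obtain ⟨p, hp, hpβ⟩ := horb δ hδ β hβ hβδ (y • β) (hpΔ y hyc.1 β hβ) hyβ
        have hk : Commute y p := hcomm p hp
        have : ∀ n : ℕ, y ^ n • β = p ^ n • β := by
          intro n
          induction n with
          | zero => rw [pow_zero, pow_zero]
          | succ n ih =>
            rw [pow_succ, mul_smul, ← hpβ, ← mul_smul, (hk.pow_left n), mul_smul, ih, ← mul_smul,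
              ← pow_succ']
        rw [this, h.pow_five hp, one_smul]
    · have : ∀ n : ℕ, y ^ n • β = β := by
        intro n
        induction n with
        | zero => rw [pow_zero, one_smul]
        | succ n ih => rw [pow_succ, mul_smul, hyc.2 β hβ, ih]
      exact this 5
  -- the point δ moved by y0
  obtain ⟨δ, hδy⟩ : ∃ δ, y0 • δ ≠ δ := by
    by_contra hne
    push_neg at hne
    exact hy01 (h.faithful y0 hne)
  have hδ : δ ∈ Δ := by
    by_contra hc
    exact hδy (((hDmem y0).1 hy0D).2 δ hc)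
  have hDΔ : ∀ y ∈ D, y • δ ∈ Δ := fun y hy => hpΔ y ((hDmem y).1 hy).1 δ hδ
  -- conjugacy
  have hconj : ∀ y ∈ D, y ≠ 1 → ∀ z ∈ D, z ≠ 1 → orderOf y = orderOf z := by
    intro y hy hy1 z hz hz1
    obtain ⟨p, hp, hpy⟩ := horb δ hδ (y • δ) (hDΔ y hy) (fun hc => hy1 (hstab δ hδ y hy hc))
      (z • δ) (hDΔ z hz) (fun hc => hz1 (hstab δ hδ z hz hc))
    have h1 : z⁻¹ * (p * y * p⁻¹) = 1 := by
      apply hstab δ hδ
      · exact D.mul_mem (D.inv_mem hz) (hnorm p (hcx δ hδ p hp) y hy)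
      · have h2 : p⁻¹ • δ = δ := h.fixes δ _ ((P δ).inv_mem hp)
        rw [mul_smul, inv_smul_eq_iff, mul_smul, mul_smul, h2, hpy]
    rw [inv_mul_eq_one] at h1
    rw [h1, ← MulAut.conj_apply]
    exact ((MulAut.conj p).orderOf_eq y).symm
  -- card D = 6
  have hcardD : Nat.card D = 6 := by
    have h1 : orbit D δ = Δ := by
      apply Set.Subset.antisymm
      · rintro z ⟨g, rfl⟩
        exact hDΔ g g.2
      · intro γ hγ
        by_cases hγδ : γ = δ
        · rw [hγδ]; exact mem_orbit_self δ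
        · obtain ⟨p, hp, hpy⟩ := horb δ hδ (y0 • δ) (hDΔ y0 hy0D) hδy γ hγ hγδ
          refine ⟨⟨p * y0 * p⁻¹, hnorm p (hcx δ hδ p hp) y0 hy0D⟩, ?_⟩
          have h2 : p⁻¹ • δ = δ := h.fixes δ _ ((P δ).inv_mem hp)
          change (p * y0 * p⁻¹) • δ = γ
          rw [mul_smul, mul_smul, h2, hpy]
    have h2 : stabilizer D δ = ⊥ := by
      rw [eq_bot_iff]
      intro g hg
      rw [Subgroup.mem_bot]
      exact Subtype.ext (hstab δ hδ g g.2 hg)
    have h3 := MulAction.index_stabilizer D δ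
    rw [h2, Subgroup.index_bot, h1, h6] at h3
    exact h3
  haveI : Fact (Nat.Prime 2) := ⟨by norm_num⟩
  haveI : Fact (Nat.Prime 3) := ⟨by norm_num⟩
  obtain ⟨y, hy⟩ := exists_prime_orderOf_dvd_card' (G := D) 2 (by rw [hcardD]; norm_num)
  obtain ⟨z, hz⟩ := exists_prime_orderOf_dvd_card' (G := D) 3 (by rw [hcardD]; norm_num)
  have hy' : orderOf (y : G) = 2 := by rw [Subgroup.orderOf_coe, hy]
  have hz' : orderOf (z : G) = 3 := by rw [Subgroup.orderOf_coe, hz]
  have := hconj y y.2 (fun hc => by rw [hc, orderOf_one] at hy'; omega) z z.2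
    (fun hc => by rw [hc, orderOf_one] at hz'; omega)
  omega

theorem case_eleven (h : Cfg G Ω P) {x : G} (hx5 : x ^ 5 = 1)
    (h6 : {δ : Ω | x • δ = δ}.ncard = 11) : False := by
  haveI := h.fin
  haveI := h.finite_Ω
  set Δ : Set Ω := {δ : Ω | x • δ = δ} with hΔ
  have hxP : ∀ δ ∈ Δ, x ∈ P δ := fun δ hδ => h.mem_of_fix (k := 1) (by simpa using hx5) hδ
  have hcx : ∀ δ ∈ Δ, ∀ p ∈ P δ, p * x = x * p := fun δ hδ p hp => h.comm hp (hxP δ hδ)
  have hpΔ : ∀ g : G, g * x = x * g → ∀ β ∈ Δ, g • β ∈ Δ := by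
    intro g hg β hβ
    change x • g • β = g • β
    rw [← mul_smul, ← hg, mul_smul, show x • β = β from hβ]
  have hpΔ' : ∀ g : G, g * x = x * g → ∀ β, β ∉ Δ → g • β ∉ Δ := by
    intro g hg β hβ hc
    apply hβ
    have k1 : Commute g x := hg
    have h1 := hpΔ g⁻¹ k1.inv_left _ hc
    rwa [inv_smul_smul] at h1
  set C : Subgroup G := Subgroup.centralizer {x} with hC
  have hCmem : ∀ g : G, g ∈ C ↔ g * x = x * g := fun g =>
    Subgroup.mem_centralizer_singleton_iff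
  obtain ⟨α, hα⟩ : Δ.Nonempty := by
    rw [← Set.ncard_pos (Set.toFinite Δ), h6]; norm_num
  have h1 : orbit C α = Δ := by
    apply Set.Subset.antisymm
    · rintro z ⟨g, rfl⟩
      exact hpΔ g ((hCmem g).1 g.2) α hα
    · intro γ hγ
      obtain ⟨g, hg, hgα⟩ := h.trans_on C Δ (fun g hg => hpΔ g ((hCmem g).1 hg))
        (fun δ hδ p hp => (hCmem p).2 (hcx δ hδ p hp)) hα hγ
      exact ⟨⟨g, hg⟩, hgα⟩
  have h2 := MulAction.index_stabilizer C α
  rw [h1, h6] at h2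
  have h3 : 11 ∣ Nat.card C := by
    rw [← h2]; exact Subgroup.index_dvd_card _
  haveI : Fact (Nat.Prime 11) := ⟨by norm_num⟩
  obtain ⟨y, hy⟩ := exists_prime_orderOf_dvd_card' (G := C) 11 h3
  have hy' : orderOf (y : G) = 11 := by rw [Subgroup.orderOf_coe, hy]
  have hyc := (hCmem y).1 y.2
  have h10 : (Δᶜ).ncard = 10 := by
    have := Set.ncard_add_ncard_compl Δ
    rw [h.card, h6] at this
    omega
  have hZ : IsPGroup 11 (Subgroup.zpowers (y : G)) := by
    rw [IsPGroup.iff_card]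
    exact ⟨1, by rw [Nat.card_zpowers, hy', pow_one]⟩
  have h4 := modeq (p := 11) (Subgroup.zpowers (y : G)) hZ Δᶜ (by
    rintro g ⟨i, rfl⟩ s hs
    have k1 : Commute (y : G) x := hyc
    exact hpΔ' _ (k1.zpow_left i) s hs)
  have hsub : {s ∈ Δᶜ | ∀ g ∈ Subgroup.zpowers (y : G), g • s = s} ⊆ Δᶜ := fun s hs => hs.1
  have h5 := Set.ncard_le_ncard hsub (Set.toFinite _)
  have h7 : {s ∈ Δᶜ | ∀ g ∈ Subgroup.zpowers (y : G), g • s = s} = Δᶜ := by
    apply Set.eq_of_subset_of_ncard_le hsub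
    rw [h10] at h4 h5 ⊢
    unfold Nat.ModEq at h4
    omega
  refine h.jordan_false (p := 11) (by norm_num) hy' (by norm_num) (S := Δ) (fun β hβ => ?_)
    (by rw [h6]; norm_num)
  have : β ∈ {s ∈ Δᶜ | ∀ g ∈ Subgroup.zpowers (y : G), g • s = s} := by rw [h7]; exact hβ
  exact this.2 _ (Subgroup.mem_zpowers _)

theorem no_fix (h : Cfg G Ω P) {ω β : Ω} {x : G} (hx : x ∈ P ω) (hx1 : x ≠ 1)
    (hβ : x • β = β) : β = ω := by
  haveI := h.fin
  haveI := h.finite_Ω
  by_contra hne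
  set Δ : Set Ω := {δ : Ω | x • δ = δ} with hΔ
  have hω : ω ∈ Δ := h.fixes ω x hx
  have hx5 := h.pow_five hx
  have h1 : Δ.ncard % 5 = 1 := by
    apply h.ncard_of_mem hω
    intro g hg s hs
    change x • g • s = g • s
    rw [← mul_smul, ← h.comm hg hx, mul_smul, show x • s = s from hs]
  have h2 : 1 < Δ.ncard := by
    rw [Set.one_lt_ncard]
    exact ⟨ω, hω, β, hβ, fun hc => hne hc.symm⟩
  have h3 : Δ.ncard < 21 := by
    rw [← h.card, ← Set.ncard_univ]
    refine Set.ncard_lt_ncard ⟨Set.subset_univ _, fun hc => hx1 ?_⟩ (Set.toFinite _)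
    exact h.faithful x (fun γ => hc (Set.mem_univ γ))
  have h4 : Δ.ncard = 6 ∨ Δ.ncard = 11 ∨ Δ.ncard = 16 := by omega
  rcases h4 with h4 | h4 | h4
  · exact h.case_six hx1 hx5 h4
  · exact h.case_eleven hx5 h4
  · have h5 : (Δᶜ).ncard = 5 := by
      have := Set.ncard_add_ncard_compl Δ
      rw [h.card, h4] at this
      omega
    refine h.jordan_false (p := 5) (by norm_num) (orderOf_eq_prime hx5 hx1) (by norm_num)
      (S := Δᶜ) (fun γ hγ => ?_) (by rw [h5]; norm_num)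
    by_contra hc
    exact hγ hc

theorem card_P_eq (h : Cfg G Ω P) (ω : Ω) : Nat.card (P ω) = 5 := by
  haveI := h.fin
  haveI := h.finite_Ω
  haveI : Nontrivial Ω := by
    rw [← Finite.one_lt_card_iff_nontrivial, h.card]; norm_num
  obtain ⟨β, hβ⟩ := exists_ne ω
  have h1 := h.index_stab hβ
  have h2 : stabilizer (P ω) β = ⊥ := by
    rw [eq_bot_iff]
    intro g hg
    rw [Subgroup.mem_bot]
    by_contra hc
    exact hβ (h.no_fix g.2 (fun h' => hc (Subtype.ext h')) hg)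
  rw [h2, Subgroup.index_bot] at h1
  exact h1

end Cfg

end H73.Syl21
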