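import Cfsg.Agent.Lib.H73.Syl21c

set_option autoImplicit false

/-! Groups with exactly 21 Sylow `5`-subgroups: transfer arguments. -/

namespace H73.Syl21

open MulAction Subgroup
open scoped Pointwise

namespace Cfg

variable {G Ω : Type*} [Group G] [MulAction G Ω] {P : Ω → Subgroup G}

theorem stab_le (h : Cfg G Ω P) (ω : Ω) : stabilizer G ω ≤ normalizer (P ω : Set G) := by
  intro g hg
  exact (h.mem_normalizer_iff g ω).2 hg

/-- action of the stabilizer on the Sylow subgroup -/
noncomputable def act (h : Cfg G Ω P) (ω : Ω) : stabilizer G ω →* MulAut (P ω) :=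
  (Subgroup.normalizerMonoidHom (P ω)).comp (Subgroup.inclusion (h.stab_le ω))

theorem act_apply (h : Cfg G Ω P) (ω : Ω) (g : stabilizer G ω) (p : P ω) :
    ((h.act ω g p : P ω) : G) = (g : G) * p * (g : G)⁻¹ := rfl

theorem isCyclic_P (h : Cfg G Ω P) (ω : Ω) : IsCyclic (P ω) :=
  isCyclic_of_prime_card (h.card_P_eq ω)

theorem card_mulAut (h : Cfg G Ω P) (ω : Ω) : Nat.card (MulAut (P ω)) = 4 := by
  haveI := h.fin
  haveI := h.isCyclic_P ω
  rw [IsCyclic.card_mulAut, h.card_P_eq ω]
  rfl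

theorem isCyclic_mulAut (h : Cfg G Ω P) (ω : Ω) : IsCyclic (MulAut (P ω)) := by
  haveI := h.fin
  haveI := h.isCyclic_P ω
  have e := IsCyclic.mulAutMulEquiv (P ω)
  have h1 : IsCyclic (ZMod (Nat.card (P ω)))ˣ := by
    rw [h.card_P_eq ω]
    exact ZMod.isCyclic_units_prime (by norm_num)
  exact isCyclic_of_injective e.toMonoidHom e.injective

theorem act_eq_one_iff (h : Cfg G Ω P) (ω : Ω) (g : stabilizer G ω) :
    h.act ω g = 1 ↔ ∀ p ∈ P ω, (g : G) * p = p * g := by
  constructor
  · intro hg p hp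
    have h1 := h.act_apply ω g ⟨p, hp⟩
    rw [hg] at h1
    change p = (g : G) * p * (g : G)⁻¹ at h1
    rw [eq_mul_inv_iff_mul_eq] at h1
    exact h1.symm
  · intro hg
    ext p
    rw [h.act_apply, hg p p.2, mul_inv_cancel_right]
    rfl

/-- an element of odd order fixing `ω` centralizes `P ω` -/
theorem comm_of_odd (h : Cfg G Ω P) {ω : Ω} {g : G} {n : ℕ} (hn : Odd n)
    (hg : g ^ n = 1) (hω : g • ω = ω) : ∀ p ∈ P ω, g * p = p * g := by
  haveI := h.fin
  rw [← h.act_eq_one_iff ω ⟨g, hω⟩]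
  have h1 : orderOf (h.act ω ⟨g, hω⟩) ∣ 4 := by
    rw [← h.card_mulAut ω]; exact orderOf_dvd_natCard _
  have h2 : orderOf (h.act ω ⟨g, hω⟩) ∣ n := by
    apply orderOf_dvd_of_pow_eq_one
    rw [← map_pow]
    have : (⟨g, hω⟩ : stabilizer G ω) ^ n = 1 := Subtype.ext hg
    rw [this, map_one]
  have h3 : Nat.Coprime 4 n := by
    have : Nat.Coprime (2 ^ 2) n := Nat.Coprime.pow_left 2 (Nat.coprime_two_left.2 hn)
    simpa using this
  have h4 := Nat.dvd_gcd h1 h2
  rw [h3] at h4
  exact orderOf_eq_one_iff.1 (Nat.dvd_one.1 h4)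

/-- elements of order five lie in some `P ω` -/
theorem exists_mem_of_orderOf (h : Cfg G Ω P) {y : G} (hy : orderOf y = 5) :
    ∃ ω, zpowers y = P ω := by
  haveI := h.fin
  haveI := h.finite_Ω
  have hZ : IsPGroup 5 (Subgroup.zpowers y) := by
    rw [IsPGroup.iff_card]
    exact ⟨1, by rw [Nat.card_zpowers, hy, pow_one]⟩
  have h1 := modeq (zpowers y) hZ (Set.univ : Set Ω) (fun _ _ _ _ => Set.mem_univ _)
  rw [Set.ncard_univ, h.card] at h1
  have h2 : {s ∈ (Set.univ : Set Ω) | ∀ g ∈ zpowers y, g • s = s}.Nonempty := by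
    rw [← Set.ncard_pos (Set.toFinite _)]
    by_contra hc
    have : {s ∈ (Set.univ : Set Ω) | ∀ g ∈ zpowers y, g • s = s}.ncard = 0 := by omega
    rw [this] at h1
    exact absurd h1 (by decide)
  obtain ⟨ω, -, hω⟩ := h2
  refine ⟨ω, ?_⟩
  have h3 : y ∈ P ω := h.mem_of_fix (k := 1) (by rw [pow_one, ← hy, pow_orderOf_eq_one])
    (hω y (mem_zpowers y))
  apply Subgroup.eq_of_le_of_card_ge
  · rw [zpowers_le]; exact h3
  · rw [h.card_P_eq ω, Nat.card_zpowers, hy]

/-- the stabilizer cannot centralize the Sylow 5-subgroup -/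
theorem not_cent (h : Cfg G Ω P) (ω : Ω)
    (hd : ∀ g : G, g • ω = ω → ∀ p ∈ P ω, g * p = p * g) : False := by
  haveI := h.fin
  haveI := h.finite_Ω
  haveI : Fact (Nat.Prime 3) := ⟨by norm_num⟩
  have hN : normalizer (h.syl ω : Set G) ≤ centralizer ((h.syl ω : Subgroup G) : Set G) := by
    intro g hg p hp
    have h1 : g • ω = ω := (h.mem_normalizer_iff g ω).1 hg
    exact (hd g h1 p hp).symm
  have hc := MonoidHom.ker_transferSylow_isComplement' (h.syl ω) hN
  set K := (MonoidHom.transferSylow (h.syl ω) hN).ker with hK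
  have hKi : K.index = 5 := by
    rw [hc.symm.index_eq_card]
    exact h.card_P_eq ω
  -- a Sylow 3-subgroup
  obtain ⟨T⟩ : Nonempty (Sylow 3 G) := inferInstance
  have hTK : (T : Subgroup G) ≤ K := by
    intro x hx
    have h1 : (QuotientGroup.mk' K x) = 1 := by
      obtain ⟨k, hk⟩ := T.2 ⟨x, hx⟩
      have hk' : x ^ 3 ^ k = 1 := congrArg Subtype.val hk
      have h2 : orderOf (QuotientGroup.mk' K x) ∣ 3 ^ k := by
        apply orderOf_dvd_of_pow_eq_one
        rw [← map_pow, hk', map_one]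
      have h3 : orderOf (QuotientGroup.mk' K x) ∣ K.index := by
        rw [Subgroup.index_eq_card]
        exact orderOf_dvd_natCard _
      rw [hKi] at h3
      have h4 : Nat.Coprime (3 ^ k) 5 := Nat.Coprime.pow_left k (by norm_num)
      have h5 := Nat.dvd_gcd h2 h3
      rw [h4] at h5
      exact orderOf_eq_one_iff.1 (Nat.dvd_one.1 h5)
    rwa [← QuotientGroup.ker_mk' K]
  have hfr := Sylow.normalizer_sup_eq_top' T hTK
  -- 5 divides the order of the normalizer
  have h5 : 5 ∣ Nat.card (normalizer (T : Set G)) := by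
    have hs : Function.Surjective ((QuotientGroup.mk' K).comp
        (normalizer (T : Set G)).subtype) := by
      rw [← MonoidHom.range_eq_top, eq_top_iff, MonoidHom.range_comp, Subgroup.range_subtype]
      intro z _
      obtain ⟨g, rfl⟩ := QuotientGroup.mk'_surjective K z
      have hg : g ∈ normalizer (T : Set G) ⊔ K := by rw [hfr]; exact mem_top g
      rw [Subgroup.mem_sup_of_normal_right] at hg
      obtain ⟨a, ha, b, hb, rfl⟩ := hg
      refine ⟨a, ha, ?_⟩
      rw [map_mul, (QuotientGroup.eq_one_iff b).2 hb |> fun e => show QuotientGroup.mk' K b = 1 from e,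
        mul_one]
    have := Subgroup.card_dvd_of_surjective _ hs
    rwa [← Subgroup.index_eq_card, hKi] at this
  obtain ⟨y, hy⟩ := exists_prime_orderOf_dvd_card' (G := normalizer (T : Set G)) 5 h5
  have hy' : orderOf (y : G) = 5 := by rw [Subgroup.orderOf_coe, hy]
  obtain ⟨ω', hω'⟩ := h.exists_mem_of_orderOf hy'
  have hPN : P ω' ≤ normalizer (T : Set G) := by
    rw [← hω', zpowers_le]; exact y.2
  -- the orbit of ω' under T
  have h1 : (orbit (T : Subgroup G) ω').ncard % 5 = 1 := by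
    apply h.ncard_of_mem (mem_orbit_self ω')
    rintro g hg s ⟨⟨t, ht⟩, rfl⟩
    have h2 := (Subgroup.mem_normalizer_iff.1 (hPN hg) t).1 ht
    refine ⟨⟨g * t * g⁻¹, h2⟩, ?_⟩
    change (g * t * g⁻¹) • ω' = g • t • ω'
    have : g⁻¹ • ω' = ω' := h.fixes ω' _ ((P ω').inv_mem hg)
    rw [mul_smul, mul_smul, this]
  have h2 : (orbit (T : Subgroup G) ω').ncard ≤ 21 := by
    rw [← h.card, ← Set.ncard_univ]
    exact Set.ncard_le_ncard (Set.subset_univ _) (Set.toFinite _)
  have h3 := MulAction.index_stabilizer (T : Subgroup G) ω'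
  obtain ⟨k, hk⟩ := (IsPGroup.iff_card.1 T.2)
  have h4 : (orbit (T : Subgroup G) ω').ncard ∣ 3 ^ k := by
    rw [← h3, ← hk]; exact Subgroup.index_dvd_card _
  obtain ⟨j, -, hj⟩ := (Nat.dvd_prime_pow (by norm_num)).1 h4
  have hj0 : j = 0 := by
    rw [hj] at h1 h2
    have : j < 3 := by
      by_contra hc
      have : 3 ^ 3 ≤ 3 ^ j := Nat.pow_le_pow_right (by norm_num) (by omega)
      omega
    interval_cases j
    · rfl
    · norm_num at h1
    · norm_num at h1
  rw [hj0, pow_zero] at hj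
  rw [hj, Subgroup.index_eq_one] at h3
  have h6 : (T : Subgroup G) ≤ stabilizer G ω' := by
    intro t ht
    have : (⟨t, ht⟩ : (T : Subgroup G)) ∈ stabilizer (T : Subgroup G) ω' := by
      rw [h3]; exact mem_top _
    exact this
  have h7 : (stabilizer G ω').index ∣ (T : Subgroup G).index := Subgroup.index_dvd_of_le h6
  have h8 : (stabilizer G ω').index = 21 := by
    haveI := h.isPretransitive
    rw [MulAction.index_stabilizer, MulAction.orbit_eq_univ, Set.ncard_univ, h.card]
  rw [h8] at h7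
  exact T.not_dvd_index ((show 3 ∣ 21 by norm_num).trans h7)

/-- no normal subgroup of odd order and index prime to 5 -/
theorem not_odd_normal (h : Cfg G Ω P) (M : Subgroup G) [M.Normal] (hM : Odd (Nat.card M))
    (hi : ¬ 5 ∣ M.index) : False := by
  haveI := h.fin
  haveI := h.finite_Ω
  obtain ⟨ω⟩ : Nonempty Ω := by
    rw [← Finite.card_pos_iff, h.card]; norm_num
  have hr := h.restrict M (fun ω => h.le_of_normal M hi ω)
  apply hr.not_cent ω
  intro g hg p hp
  exact hr.comm_of_odd hM (pow_card_eq_one' (x := g)) hg p hp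

/-- even involutions centralizing `P ω` have a unique fixed point -/
theorem inv_cent (h : Cfg G Ω P)
    (hev : ∀ g : G, g * g = 1 → {β : Ω | g • β = β}.ncard % 4 = 1) {ω : Ω} {k : G}
    (hk : k * k = 1) (hk1 : k ≠ 1) (hc : ∀ p ∈ P ω, k * p = p * k) {β : Ω}
    (hβ : k • β = β) : β = ω := by
  haveI := h.fin
  haveI := h.finite_Ω
  have hω : k • ω = ω := by
    rw [← h.mem_normalizer_iff, Subgroup.mem_normalizer_iff]
    have hkinv : k⁻¹ = k := inv_eq_of_mul_eq_one_right hk
    intro p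
    rw [hkinv]
    constructor
    · intro hp; rw [hc p hp, mul_assoc, hk, mul_one]; exact hp
    · intro hp
      have h1 := hc _ hp
      have h2 : k * (k * p * k) = p * k := by
        rw [mul_assoc k p k, ← mul_assoc k k, hk, one_mul]
      have h3 : k * p * k * k = k * p := by rw [mul_assoc (k * p), hk, mul_one]
      rw [h2, h3] at h1
      rw [← h1, mul_assoc, hk, mul_one] at hp
      exact hp
  have h1 := hev k hk
  have h2 : {β : Ω | k • β = β}.ncard % 5 = 1 := by
    refine h.ncard_of_mem (ω := ω) (S := {β : Ω | k • β = β}) hω ?_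
    intro g hg s hs
    change k • g • s = g • s
    rw [← mul_smul, hc g hg, mul_smul, show k • s = s from hs]
  have h3 : {β : Ω | k • β = β}.ncard < 21 := by
    rw [← h.card, ← Set.ncard_univ]
    refine Set.ncard_lt_ncard ⟨Set.subset_univ _, fun hc => hk1 ?_⟩ (Set.toFinite _)
    exact h.faithful k (fun γ => hc (Set.mem_univ γ))
  have h4 : {β : Ω | k • β = β}.ncard = 1 := by omega
  rw [Set.ncard_eq_one] at h4
  obtain ⟨a, ha⟩ := h4
  have h5 : β ∈ {β : Ω | k • β = β} := hβ
  have h6 : ω ∈ {β : Ω | k • β = β} := hω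
  rw [ha] at h5 h6
  rw [Set.mem_singleton_iff] at h5 h6
  rw [h5, h6]

end Cfg

end H73.Syl21
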