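import Cfsg.Agent.Lib.H73.Syl21d

set_option autoImplicit false

/-! Groups with exactly 21 Sylow `5`-subgroups: the even case. -/

namespace H73.Syl21

open MulAction Subgroup
open scoped Pointwise

namespace Cfg

variable {G Ω : Type*} [Group G] [MulAction G Ω] {P : Ω → Subgroup G}

theorem cent_le_stab (h : Cfg G Ω P) {ω : Ω} {g : G} (hg : ∀ p ∈ P ω, g * p = p * g) :
    g • ω = ω := by
  rw [← h.mem_normalizer_iff, Subgroup.mem_normalizer_iff]
  intro p
  constructor
  · intro hp; rw [hg p hp, mul_inv_cancel_right]; exact hp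
  · intro hp
    have h1 := hg _ hp
    have h2 : g * p * g⁻¹ = p := by
      have h3 : g⁻¹ * (g * (g * p * g⁻¹)) = g⁻¹ * (g * p * g⁻¹ * g) := by rw [h1]
      have e1 : g⁻¹ * (g * (g * p * g⁻¹)) = g * p * g⁻¹ := by group
      have e2 : g⁻¹ * (g * p * g⁻¹ * g) = p := by group
      rw [e1, e2] at h3; exact h3
    rwa [h2] at hp

theorem case_two (h : Cfg G Ω P)
    (hev : ∀ g : G, g * g = 1 → {β : Ω | g • β = β}.ncard % 4 = 1)
    (h4 : ∀ ω, ¬ 4 ∣ Nat.card (centralizer (P ω : Set G))) : False := by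
  haveI := h.fin
  haveI := h.finite_Ω
  haveI : Fact (Nat.Prime 2) := ⟨Nat.prime_two⟩
  obtain ⟨R⟩ : Nonempty (Sylow 2 G) := inferInstance
  -- a fixed point
  have h1 := modeq (R : Subgroup G) R.2 (Set.univ : Set Ω) (fun _ _ _ _ => Set.mem_univ _)
  rw [Set.ncard_univ, h.card] at h1
  have h2 : {s ∈ (Set.univ : Set Ω) | ∀ g ∈ (R : Subgroup G), g • s = s}.Nonempty := by
    rw [← Set.ncard_pos (Set.toFinite _)]
    by_contra hc
    have : {s ∈ (Set.univ : Set Ω) | ∀ g ∈ (R : Subgroup G), g • s = s}.ncard = 0 := by omega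
    rw [this] at h1
    exact absurd h1 (by decide)
  obtain ⟨ω, -, hω⟩ := h2
  have hRs : (R : Subgroup G) ≤ stabilizer G ω := fun g hg => hω g hg
  have hcyc := h.isCyclic_mulAut ω
  have hcommAut : ∀ a b : MulAut (P ω), a * b = b * a := by
    letI := IsCyclic.commGroup (α := MulAut (P ω))
    intro a b
    exact mul_comm a b
  set C0 : Subgroup G := centralizer (P ω : Set G) with hC0
  have hC0mem : ∀ g : G, g ∈ C0 ↔ ∀ p ∈ P ω, g * p = p * g := by
    intro g
    rw [hC0, mem_centralizer_iff]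
    exact ⟨fun hh p hp => (hh p hp).symm, fun hh p hp => (hh p hp).symm⟩
  -- two nontrivial elements of R ∩ C0 are equal
  have hR0 : ∀ a b : G, a ∈ R → b ∈ R → a ∈ C0 → b ∈ C0 → a ≠ 1 → b ≠ 1 → a = b := by
    intro a b ha hb ha' hb' ha1 hb1
    by_contra hab
    set Z : Subgroup G := (R : Subgroup G) ⊓ C0 with hZ
    have hZp : IsPGroup 2 Z := R.2.to_le inf_le_left
    obtain ⟨j, hj⟩ := IsPGroup.iff_card.1 hZp
    have hZd : Nat.card Z ∣ Nat.card C0 := Subgroup.card_dvd_of_le inf_le_right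
    have hj1 : j ≤ 1 := by
      by_contra hc
      apply h4 ω
      refine Dvd.dvd.trans ?_ hZd
      rw [hj]
      exact (show 4 ∣ 2 ^ 2 by norm_num).trans (pow_dvd_pow 2 (by omega))
    have hZ2 : Nat.card Z ≤ 2 := by
      rw [hj]
      calc 2 ^ j ≤ 2 ^ 1 := Nat.pow_le_pow_right (by norm_num) hj1
        _ = 2 := by norm_num
    have h3 : 3 ≤ Nat.card Z := by
      let f : Fin 3 → Z := ![1, ⟨a, ha, ha'⟩, ⟨b, hb, hb'⟩]
      have hf : Function.Injective f := by
        intro i j hij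
        have hab' : (⟨a, ha, ha'⟩ : Z) ≠ ⟨b, hb, hb'⟩ := fun hh => hab (congrArg Subtype.val hh)
        have ha2 : (⟨a, ha, ha'⟩ : Z) ≠ 1 := fun hh => ha1 (congrArg Subtype.val hh)
        have hb2 : (⟨b, hb, hb'⟩ : Z) ≠ 1 := fun hh => hb1 (congrArg Subtype.val hh)
        fin_cases i <;> fin_cases j <;>
          first
          | rfl
          | exact absurd hij hab'
          | exact absurd hij.symm hab'
          | exact absurd hij ha2
          | exact absurd hij.symm ha2
          | exact absurd hij hb2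
          | exact absurd hij.symm hb2
      have := Nat.card_le_card_of_injective f hf
      simpa using this
    omega
  -- R is abelian
  let f : (R : Subgroup G) →* MulAut (P ω) := (h.act ω).comp (Subgroup.inclusion hRs)
  have hf1 : ∀ r : (R : Subgroup G), f r = 1 ↔ (r : G) ∈ C0 := by
    intro r
    rw [hC0mem]
    exact h.act_eq_one_iff ω (Subgroup.inclusion hRs r)
  have hker : f.ker ≤ Subgroup.center (R : Subgroup G) := by
    intro r hr
    rw [MonoidHom.mem_ker] at hr
    rw [Subgroup.mem_center_iff]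
    intro g
    by_cases hr1 : r = 1
    · rw [hr1]; simp
    have h5 : f (g * r * g⁻¹) = 1 := by
      rw [map_mul, map_mul, hr, mul_one, ← map_mul, mul_inv_cancel, map_one]
    have h6 := hR0 (g * r * g⁻¹ : (R : Subgroup G)) r (g * r * g⁻¹ : (R : Subgroup G)).2 r.2
      ((hf1 _).1 h5) ((hf1 _).1 hr) (fun hc => hr1 ?_) (fun hc => hr1 (Subtype.ext hc))
    · have h7 : g * r * g⁻¹ = r := Subtype.ext h6
      rwa [mul_inv_eq_iff_eq_mul] at h7
    · have h7 : g * r * g⁻¹ = 1 := Subtype.ext hc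
      rwa [conj_eq_one_iff] at h7
  have hRab : ∀ a ∈ R, ∀ b ∈ R, a * b = b * a := by
    intro a ha b hb
    exact congrArg Subtype.val (commutative_of_cyclic_center_quotient f hker ⟨a, ha⟩ ⟨b, hb⟩)
  -- normalizer centralizes
  have hN : normalizer (R : Set G) ≤ centralizer ((R : Subgroup G) : Set G) := by
    by_cases hk : ∃ k ∈ R, k ∈ C0 ∧ k ≠ 1
    · obtain ⟨k, hkR, hkC, hk1⟩ := hk
      have hkk : k * k = 1 := by
        by_contra hc
        have := hR0 (k * k) k (mul_mem hkR hkR) hkR (mul_mem hkC hkC) hkC hc hk1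
        exact hk1 (mul_eq_left.1 this)
      intro g hg
      have hgR : ∀ r ∈ R, g * r * g⁻¹ ∈ R := fun r hr => (Subgroup.mem_normalizer_iff.1 hg r).1 hr
      have hgω : g • ω = ω := by
        have h5 : (g * k * g⁻¹) • ω = ω := hRs (hgR k hkR)
        rw [mul_smul, mul_smul, ← eq_inv_smul_iff] at h5
        have h6 := h.inv_cent hev hkk hk1 ((hC0mem k).1 hkC) h5
        rw [inv_smul_eq_iff] at h6
        exact h6.symm
      have hgk : g * k * g⁻¹ = k := by
        apply hR0 _ _ (hgR k hkR) hkR _ hkC _ hk1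
        · rw [hC0mem, ← h.act_eq_one_iff ω ⟨g * k * g⁻¹, hRs (hgR k hkR)⟩]
          have e : (⟨g * k * g⁻¹, hRs (hgR k hkR)⟩ : stabilizer G ω)
              = ⟨g, hgω⟩ * ⟨k, hRs hkR⟩ * (⟨g, hgω⟩ : stabilizer G ω)⁻¹ := rfl
          have e2 : h.act ω ⟨k, hRs hkR⟩ = 1 := (h.act_eq_one_iff ω _).2 ((hC0mem k).1 hkC)
          rw [e, map_mul, map_mul, e2, mul_one, ← map_mul, mul_inv_cancel, map_one]
        · rwa [Ne, conj_eq_one_iff]
      rw [mem_centralizer_iff]
      -- g ^ 2 commutes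
      have hg2 : ∀ r ∈ R, Commute (g ^ 2) r := by
        intro r hr
        have hz : g * r * g⁻¹ * r⁻¹ = 1 ∨ g * r * g⁻¹ * r⁻¹ = k := by
          by_cases hz1 : g * r * g⁻¹ * r⁻¹ = 1
          · exact Or.inl hz1
          · right
            have hzR : g * r * g⁻¹ * r⁻¹ ∈ R := mul_mem (hgR r hr) (inv_mem hr)
            apply hR0 _ _ hzR hkR _ hkC hz1 hk1
            rw [hC0mem, ← h.act_eq_one_iff ω ⟨_, hRs hzR⟩]
            have e : (⟨g * r * g⁻¹ * r⁻¹, hRs hzR⟩ : stabilizer G ω)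
                = ⟨g, hgω⟩ * ⟨r, hRs hr⟩ * (⟨g, hgω⟩ : stabilizer G ω)⁻¹
                  * (⟨r, hRs hr⟩ : stabilizer G ω)⁻¹ := rfl
            rw [e, map_mul, map_mul, map_mul, map_inv, map_inv,
              hcommAut (h.act ω ⟨g, hgω⟩) (h.act ω ⟨r, hRs hr⟩), mul_inv_cancel_right,
              mul_inv_cancel]
        rcases hz with hz | hz
        · rw [mul_inv_eq_one, mul_inv_eq_iff_eq_mul] at hz
          have : Commute g r := hz
          exact this.pow_left 2
        · rw [mul_inv_eq_iff_eq_mul] at hz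
          have h8 : g ^ 2 * r * (g ^ 2)⁻¹ = r := by
            have e : g ^ 2 * r * (g ^ 2)⁻¹ = g * (g * r * g⁻¹) * g⁻¹ := by
              rw [pow_two]; group
            rw [e, hz]
            have e2 : g * (k * r) * g⁻¹ = (g * k * g⁻¹) * (g * r * g⁻¹) := by group
            rw [e2, hgk, hz, ← mul_assoc, hkk, one_mul]
          rw [mul_inv_eq_iff_eq_mul] at h8
          exact h8
      obtain ⟨a, b, hb, hab⟩ := Nat.exists_eq_two_pow_mul_odd (orderOf_pos g).ne'
      have hgb : g ^ b ∈ R := by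
        have hp : (g ^ b) ^ 2 ^ a = 1 := by
          rw [← pow_mul, mul_comm, ← hab, pow_orderOf_eq_one]
        have hz : IsPGroup 2 (Subgroup.zpowers (g ^ b)) := by
          rw [IsPGroup.iff_card, Nat.card_zpowers]
          obtain ⟨j, -, hj⟩ := (Nat.dvd_prime_pow Nat.prime_two).1 (orderOf_dvd_of_pow_eq_one hp)
          exact ⟨j, hj⟩
        have h9 := hz.inf_normalizer_sylow R
        have h10 : g ^ b ∈ Subgroup.zpowers (g ^ b) ⊓ Subgroup.normalizer R :=
          ⟨Subgroup.mem_zpowers _, pow_mem hg b⟩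
        rw [h9] at h10
        exact h10.2
      intro r hr
      obtain ⟨m, hm⟩ := hb
      have c1 : Commute (g ^ b) r := hRab _ hgb r hr
      have c2 : Commute ((g ^ 2) ^ m) r := (hg2 r hr).pow_left m
      have e : g = g ^ b * ((g ^ 2) ^ m)⁻¹ := by
        rw [hm, ← pow_mul, pow_add, pow_one, mul_inv_eq_iff_eq_mul.2]
        rw [← pow_succ', ← pow_succ]
      have c3 : Commute g r := by
        rw [e]; exact c1.mul_left c2.inv_left
      exact c3.symm
    · push_neg at hk
      have hfi : Function.Injective f := by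
        rw [injective_iff_map_eq_one]
        intro r hr
        exact Subtype.ext (hk r r.2 ((hf1 r).1 hr))
      have hRc : IsCyclic (R : Subgroup G) := isCyclic_of_injective f hfi
      by_cases h2 : 2 ∣ Nat.card G
      · have hmf : (Nat.card G).minFac = 2 := (Nat.minFac_eq_two_iff _).2 h2
        exact hRc.normalizer_le_centralizer hmf
      · exfalso
        apply h.not_odd_normal ⊤
        · rw [Subgroup.card_top]
          exact Nat.odd_iff.2 (by omega)
        · rw [Subgroup.index_top]; norm_num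
  have hc := MonoidHom.ker_transferSylow_isComplement' R hN
  set K := (MonoidHom.transferSylow R hN).ker with hK
  apply h.not_odd_normal K
  · have h5 := MonoidHom.not_dvd_card_ker_transferSylow R hN
    rw [← hK] at h5
    exact Nat.odd_iff.2 (by omega)
  · have h5 : K.index = Nat.card R := hc.symm.index_eq_card
    obtain ⟨j, hj⟩ := IsPGroup.iff_card.1 R.2
    have hj' : Nat.card R = 2 ^ j := hj
    rw [h5, hj']
    intro hd
    have := (Nat.Prime.dvd_of_dvd_pow (by norm_num : Nat.Prime 5) hd)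
    omega

theorem inverts (h : Cfg G Ω P)
    (hev : ∀ g : G, g * g = 1 → {β : Ω | g • β = β}.ncard % 4 = 1) {ω β : Ω} {t : G}
    (ht : t * t = 1) (ht1 : t ≠ 1) (hω : t • ω = ω) (hβ : t • β = β) (hne : β ≠ ω) :
    ∀ p ∈ P ω, t * p = p⁻¹ * t := by
  classical
  haveI := h.fin
  obtain ⟨x, hx, hxt⟩ : ∃ x ∈ P ω, t * x ≠ x * t := by
    by_contra hc
    push_neg at hc
    exact hne (h.inv_cent hev ht ht1 hc hβ)
  have hx1 : x ≠ 1 := by rintro rfl; simp at hxt
  have hxo : orderOf x = 5 := orderOf_eq_prime (h.pow_five hx) hx1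
  have hz : zpowers x = P ω := by
    apply Subgroup.eq_of_le_of_card_ge
    · rw [zpowers_le]; exact hx
    · rw [h.card_P_eq ω, Nat.card_zpowers, hxo]
  have h1 : t * x * t⁻¹ ∈ P ω := by
    have := h.conj t ω x hx
    rwa [hω] at this
  rw [← hz, ← (isOfFinOrder_of_finite x).mem_powers_iff_mem_zpowers,
    (isOfFinOrder_of_finite x).mem_powers_iff_mem_range_orderOf, Finset.mem_image] at h1
  obtain ⟨i, hi, hix⟩ := h1
  rw [hxo, Finset.mem_range] at hi
  have htinv : t⁻¹ = t := inv_eq_of_mul_eq_one_right ht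
  have h2 : x ^ (i * i) = x ^ 1 := by
    have h3 : t * x ^ i * t⁻¹ = (x ^ i) ^ i := by
      rw [← conj_pow, ← hix]
    rw [← pow_mul] at h3
    rw [← h3, hix]
    rw [htinv, pow_one]
    rw [mul_assoc t x t, ← mul_assoc t t, ht, one_mul, mul_assoc, ht, mul_one]
  rw [pow_eq_pow_iff_modEq, hxo] at h2
  have h3 : t * x * t⁻¹ = x⁻¹ := by
    have hi' : i = 1 ∨ i = 4 := by
      unfold Nat.ModEq at h2
      interval_cases i <;> simp_all
    rcases hi' with rfl | rfl
    · exfalso
      rw [pow_one, eq_mul_inv_iff_mul_eq] at hix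
      exact hxt hix.symm
    · rw [← hix, eq_inv_iff_mul_eq_one, ← pow_succ]
      exact h.pow_five hx
  intro p hp
  rw [← hz] at hp
  obtain ⟨j, rfl⟩ := hp
  change t * x ^ j = (x ^ j)⁻¹ * t
  rw [← mul_inv_eq_iff_eq_mul, ← conj_zpow, h3, inv_zpow]

theorem case_four (h : Cfg G Ω P)
    (hev : ∀ g : G, g * g = 1 → {β : Ω | g • β = β}.ncard % 4 = 1) {ω : Ω}
    (h4 : 4 ∣ Nat.card (centralizer (P ω : Set G))) : False := by
  haveI := h.fin
  haveI := h.finite_Ω
  haveI : Fact (Nat.Prime 2) := ⟨Nat.prime_two⟩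
  haveI : Nontrivial Ω := by
    rw [← Finite.one_lt_card_iff_nontrivial, h.card]; norm_num
  set C0 : Subgroup G := centralizer (P ω : Set G) with hC0
  have hC0mem : ∀ g : G, g ∈ C0 ↔ ∀ p ∈ P ω, g * p = p * g := by
    intro g
    rw [hC0, mem_centralizer_iff]
    exact ⟨fun hh p hp => (hh p hp).symm, fun hh p hp => (hh p hp).symm⟩
  have hC0s : ∀ g ∈ C0, g • ω = ω := fun g hg => h.cent_le_stab ((hC0mem g).1 hg)
  -- transitivity of C0 outside ω
  have hT : ∀ β γ : Ω, β ≠ ω → γ ≠ ω → ∃ c ∈ C0, c • β = γ := by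
    intro β γ hβ hγ
    have h1 : ¬ 2 ∣ Nat.card (stabilizer C0 β) := by
      intro hd
      obtain ⟨y, hy⟩ := exists_prime_orderOf_dvd_card' (G := stabilizer C0 β) 2 hd
      have hy' : orderOf ((y : C0) : G) = 2 := by
        rw [Subgroup.orderOf_coe, Subgroup.orderOf_coe, hy]
      have hyy : ((y : C0) : G) * ((y : C0) : G) = 1 := by
        rw [← pow_two, ← hy', pow_orderOf_eq_one]
      have hy1 : ((y : C0) : G) ≠ 1 := by
        intro hc; rw [hc, orderOf_one] at hy'; omega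
      exact hβ (h.inv_cent hev hyy hy1 ((hC0mem _).1 (y : C0).2) y.2)
    have h2 := (stabilizer C0 β).card_mul_index
    have h3 : Nat.Coprime 4 (Nat.card (stabilizer C0 β)) := by
      have : Nat.Coprime (2 ^ 2) (Nat.card (stabilizer C0 β)) := by
        apply Nat.Coprime.pow_left
        rwa [Nat.Prime.coprime_iff_not_dvd Nat.prime_two]
      simpa using this
    have h5 : 4 ∣ (stabilizer C0 β).index := by
      rw [← h2] at h4
      exact h3.dvd_of_dvd_mul_left h4
    have hω : ω ∉ orbit C0 β := by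
      rintro ⟨g, hg⟩
      have h6 : (g : G) • β = ω := hg
      exact hβ (smul_left_cancel (g : G) (h6.trans (hC0s g g.2).symm))
    have hinv : ∀ g ∈ P ω, ∀ s ∈ orbit C0 β, g • s ∈ orbit C0 β := by
      rintro g hg s ⟨c, rfl⟩
      have hg' : g ∈ C0 := (hC0mem g).2 (fun p hp => h.comm hg hp)
      refine ⟨⟨g, hg'⟩ * c, ?_⟩
      change (g * (c : G)) • β = g • (c : G) • β
      rw [mul_smul]
    have h6 := h.ncard_of_notMem hω hinv
    have h7 : orbit C0 β ⊆ {ω}ᶜ := by
      intro s hs hc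
      rw [Set.mem_singleton_iff] at hc
      rw [hc] at hs; exact hω hs
    have h8 : ({ω}ᶜ : Set Ω).ncard = 20 := by
      have := Set.ncard_add_ncard_compl ({ω} : Set Ω)
      rw [h.card, Set.ncard_singleton] at this
      omega
    have h9 := Set.ncard_le_ncard h7 (Set.toFinite _)
    rw [MulAction.index_stabilizer] at h5
    have h10 : 0 < (orbit C0 β).ncard :=
      (Set.ncard_pos (Set.toFinite _)).2 ⟨β, mem_orbit_self β⟩
    have h11 : orbit C0 β = {ω}ᶜ := by
      apply Set.eq_of_subset_of_ncard_le h7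
      omega
    have h12 : γ ∈ orbit C0 β := by rw [h11]; exact hγ
    obtain ⟨g, hg⟩ := h12
    exact ⟨g, g.2, hg⟩
  -- double transitivity
  have h2T : ∀ α β γ δ : Ω, β ≠ α → δ ≠ γ → ∃ g : G, g • α = γ ∧ g • β = δ := by
    intro α β γ δ hβ hδ
    haveI := h.isPretransitive
    obtain ⟨u, hu⟩ := MulAction.exists_smul_eq G α ω
    obtain ⟨v, hv⟩ := MulAction.exists_smul_eq G γ ω
    have hu1 : u • β ≠ ω := by
      rw [← hu]; intro hc; exact hβ (smul_left_cancel u hc)
    have hv1 : v • δ ≠ ω := by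
      rw [← hv]; intro hc; exact hδ (smul_left_cancel v hc)
    obtain ⟨c, hc, hcu⟩ := hT _ _ hu1 hv1
    refine ⟨v⁻¹ * c * u, ?_, ?_⟩
    · rw [mul_smul, mul_smul, hu, hC0s c hc, ← hv, inv_smul_smul]
    · rw [mul_smul, mul_smul, hcu, inv_smul_smul]
  -- involution fixing two points
  obtain ⟨β, hβ⟩ := exists_ne ω
  obtain ⟨t, htt, ht1, htω, htβ⟩ : ∃ t : G, t * t = 1 ∧ t ≠ 1 ∧ t • ω = ω ∧ t • β = β := by
    obtain ⟨n, hn, p, hp, hnp⟩ : ∃ n : G, n • ω = ω ∧ ∃ p ∈ P ω, n * p ≠ p * n := by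
      by_contra hc
      push_neg at hc
      exact h.not_cent ω (fun g hg p hp => hc g hg p hp)
    have hnβ : n • β ≠ ω := by
      intro hc; exact hβ (smul_left_cancel n (hc.trans hn.symm))
    obtain ⟨c, hc, hcβ⟩ := hT β (n • β) hβ hnβ
    set H : Subgroup G := stabilizer G ω ⊓ stabilizer G β with hH
    have hm : c⁻¹ * n ∈ H := by
      refine ⟨?_, ?_⟩
      · change (c⁻¹ * n) • ω = ω
        rw [mul_smul, hn, inv_smul_eq_iff, hC0s c hc]
      · change (c⁻¹ * n) • β = β
        rw [mul_smul, ← hcβ, inv_smul_smul]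
    have h2 : 2 ∣ Nat.card H := by
      by_contra hd
      have hodd : Odd (Nat.card H) := Nat.odd_iff.2 (by omega)
      have hmp : (c⁻¹ * n) ^ Nat.card H = 1 := by
        have := pow_card_eq_one' (x := (⟨c⁻¹ * n, hm⟩ : H))
        exact congrArg Subtype.val this
      have h5 := h.comm_of_odd hodd hmp hm.1 p hp
      apply hnp
      have h6 := (hC0mem c).1 hc
      calc n * p = c * ((c⁻¹ * n) * p) := by group
        _ = c * (p * (c⁻¹ * n)) := by rw [h5]
        _ = (c * p) * (c⁻¹ * n) := by group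
        _ = (p * c) * (c⁻¹ * n) := by rw [h6 p hp]
        _ = p * n := by group
    obtain ⟨y, hy⟩ := exists_prime_orderOf_dvd_card' (G := H) 2 h2
    have hy' : orderOf (y : G) = 2 := by rw [Subgroup.orderOf_coe, hy]
    refine ⟨y, ?_, ?_, y.2.1, y.2.2⟩
    · rw [← pow_two, ← hy', pow_orderOf_eq_one]
    · intro hc; rw [hc, orderOf_one] at hy'; omega
  have htinv : t⁻¹ = t := inv_eq_of_mul_eq_one_right htt
  have hinv := h.inverts hev htt ht1 htω htβ hβ
  -- the fixed points of t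
  set F : Set Ω := {γ | t • γ = γ ∧ γ ≠ ω} with hF
  have hFix : {γ : Ω | t • γ = γ} = insert ω F := by
    ext γ
    simp only [hF, Set.mem_insert_iff, Set.mem_setOf_eq]
    constructor
    · intro hγ
      by_cases hc : γ = ω
      · exact Or.inl hc
      · exact Or.inr ⟨hγ, hc⟩
    · rintro (rfl | hγ)
      · exact htω
      · exact hγ.1
  have hωF : ω ∉ F := fun hc => hc.2 rfl
  have hFn := hev t htt
  rw [hFix, Set.ncard_insert_of_notMem hωF (Set.toFinite F)] at hFn
  have hFpos : 0 < F.ncard := (Set.ncard_pos (Set.toFinite _)).2 ⟨β, htβ, hβ⟩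
  let φ : P ω × F → {γ : Ω // γ ≠ ω} := fun q => ⟨(q.1 : G) • (q.2 : Ω), fun hc =>
    q.2.2.2 (smul_left_cancel (q.1 : G) (hc.trans (h.fixes ω q.1 q.1.2).symm))⟩
  have hφ : Function.Injective φ := by
    rintro ⟨⟨p, hp⟩, ⟨γ, hγ⟩⟩ ⟨⟨q, hq⟩, ⟨δ, hδ⟩⟩ hpq
    have h5 : p • γ = q • δ := congrArg Subtype.val hpq
    -- r = q⁻¹ p maps γ to δ
    have h6 : (q⁻¹ * p) • γ = δ := by rw [mul_smul, h5, inv_smul_smul]
    have hr : q⁻¹ * p ∈ P ω := (P ω).mul_mem ((P ω).inv_mem hq) hp
    have h7 : (q⁻¹ * p)⁻¹ • γ = δ := by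
      have e : t • (q⁻¹ * p) • γ = (q⁻¹ * p)⁻¹ • γ := by
        rw [← mul_smul, hinv _ hr, mul_smul, hγ.1]
      rw [← e, h6, hδ.1]
    have h8 : ((q⁻¹ * p) * (q⁻¹ * p)) • γ = γ := by
      rw [mul_smul, h6, ← h7, smul_inv_smul]
    have h9 : (q⁻¹ * p) * (q⁻¹ * p) = 1 := by
      by_contra hc
      exact hγ.2 (h.no_fix ((P ω).mul_mem hr hr) hc h8)
    have h10 : q⁻¹ * p = 1 := by
      have h11 := h.pow_five hr
      have e : (q⁻¹ * p) ^ 5 = ((q⁻¹ * p) * (q⁻¹ * p)) * ((q⁻¹ * p) * (q⁻¹ * p)) * (q⁻¹ * p) := by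
        simp only [pow_succ, pow_zero, one_mul, mul_assoc]
      rw [e, h9, one_mul, one_mul] at h11
      exact h11
    rw [h10, one_smul] at h6
    rw [inv_mul_eq_one] at h10
    subst h6
    subst h10
    rfl
  have hcard1 : Nat.card {γ : Ω // γ ≠ ω} = 20 := by
    have := Set.ncard_add_ncard_compl ({ω} : Set Ω)
    rw [h.card, Set.ncard_singleton] at this
    have h5 : Nat.card {γ : Ω // γ ≠ ω} = ({ω}ᶜ : Set Ω).ncard := rfl
    omega
  have hcard2 : Nat.card (P ω × F) = 5 * F.ncard := by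
    rw [Nat.card_prod, h.card_P_eq ω]; rfl
  have hle := Nat.card_le_card_of_injective φ hφ
  rw [hcard1, hcard2] at hle
  have hF4 : F.ncard = 4 := by omega
  have hφb : Function.Bijective φ := by
    apply hφ.bijective_of_nat_card_le
    rw [hcard1, hcard2, hF4]
  have hφs : ∀ γ : Ω, γ ≠ ω → ∃ p ∈ P ω, ∃ δ ∈ F, p • δ = γ := by
    intro γ hγ
    obtain ⟨⟨p, δ⟩, hpδ⟩ := hφb.2 ⟨γ, hγ⟩
    exact ⟨p, p.2, δ, δ.2, congrArg Subtype.val hpδ⟩
  -- t centralizes the elements of C0 fixing β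
  have hE2 : ∀ y ∈ C0, y • β = β → t * y = y * t := by
    intro y hy hyβ
    have hyω := hC0s y hy
    have hyc := (hC0mem y).1 hy
    have hzC : t * y * t⁻¹ * y⁻¹ ∈ C0 := by
      rw [hC0mem]
      intro p hp
      have k1 := hinv p hp
      have k2 : t⁻¹ * p = p⁻¹ * t⁻¹ := by rw [htinv]; exact k1
      have k3 : y * p = p * y := hyc p hp
      have k4 : y⁻¹ * p = p * y⁻¹ := (Commute.inv_left k3)
      have k5 : y * p⁻¹ = p⁻¹ * y := (Commute.inv_right k3)
      have k6 : t * p⁻¹ = p * t := by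
        have := hinv p⁻¹ ((P ω).inv_mem hp)
        rwa [inv_inv] at this
      calc t * y * t⁻¹ * y⁻¹ * p = t * y * t⁻¹ * (y⁻¹ * p) := by group
        _ = t * y * t⁻¹ * (p * y⁻¹) := by rw [k4]
        _ = t * y * (t⁻¹ * p) * y⁻¹ := by group
        _ = t * y * (p⁻¹ * t⁻¹) * y⁻¹ := by rw [k2]
        _ = t * (y * p⁻¹) * t⁻¹ * y⁻¹ := by group
        _ = t * (p⁻¹ * y) * t⁻¹ * y⁻¹ := by rw [k5]
        _ = (t * p⁻¹) * y * t⁻¹ * y⁻¹ := by group
        _ = (p * t) * y * t⁻¹ * y⁻¹ := by rw [k6]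
        _ = p * (t * y * t⁻¹ * y⁻¹) := by group
    set z := t * y * t⁻¹ * y⁻¹ with hz
    have hzc := (hC0mem z).1 hzC
    have hzω : z • ω = ω := hC0s z hzC
    have hzβ : z • β = β := by
      have e1 : y⁻¹ • β = β := by rw [inv_smul_eq_iff, hyβ]
      have e2 : t⁻¹ • β = β := by rw [htinv]; exact htβ
      rw [hz, mul_smul, mul_smul, mul_smul, e1, e2, hyβ, htβ]
    -- z acts on the fixed points as elements of P ω
    have hzF : ∀ γ ∈ F, ∃ q ∈ P ω, z • γ = q • γ := by
      intro γ hγ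
      have hyγ : y⁻¹ • γ ≠ ω := by
        intro hc
        rw [inv_smul_eq_iff, hyω] at hc
        exact hγ.2 hc
      obtain ⟨p, hp, δ, hδ, hpδ⟩ := hφs _ hyγ
      refine ⟨p * p, (P ω).mul_mem hp hp, ?_⟩
      -- y • δ = p⁻¹ • γ
      have k3 : y * p = p * y := hyc p hp
      have k5 : y * p⁻¹ = p⁻¹ * y := (Commute.inv_right k3)
      have h5 : y • δ = p⁻¹ • γ := by
        have h6 : y • p • δ = γ := by rw [hpδ, smul_inv_smul]
        rw [← mul_smul, k3, mul_smul] at h6
        rw [← h6, inv_smul_smul]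
      have k2 : t⁻¹ * p = p⁻¹ * t⁻¹ := by rw [htinv]; exact hinv p hp
      have k6 : t * p⁻¹ = p * t := by
        have := hinv p⁻¹ ((P ω).inv_mem hp)
        rwa [inv_inv] at this
      have htδ : t⁻¹ • δ = δ := by rw [htinv]; exact hδ.1
      calc z • γ = (t * y * t⁻¹) • (y⁻¹ • γ) := by rw [hz, mul_smul]
        _ = (t * y * t⁻¹) • (p • δ) := by rw [hpδ]
        _ = (t * y * (t⁻¹ * p)) • δ := by rw [← mul_smul]; congr 1; group
        _ = (t * y * (p⁻¹ * t⁻¹)) • δ := by rw [k2]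
        _ = (t * (y * p⁻¹)) • (t⁻¹ • δ) := by rw [← mul_smul]; congr 1; group
        _ = (t * (p⁻¹ * y)) • δ := by rw [htδ, k5]
        _ = ((t * p⁻¹)) • (y • δ) := by rw [← mul_smul]; congr 1; group
        _ = (p * t) • (p⁻¹ • γ) := by rw [h5, k6]
        _ = (p * (t * p⁻¹)) • γ := by rw [← mul_smul]; congr 1; group
        _ = (p * (p * t)) • γ := by rw [k6]
        _ = (p * p) • γ := by rw [← mul_assoc, mul_smul, hγ.1]
    have hz5 : z ^ 5 = 1 := by
      apply h.faithful
      intro γ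
      by_cases hγ : γ = ω
      · have : z ^ 5 ∈ stabilizer G ω := pow_mem (show z ∈ stabilizer G ω from hzω) 5
        rw [hγ]; exact this
      · obtain ⟨p, hp, δ, hδ, rfl⟩ := hφs γ hγ
        obtain ⟨q, hq, hzq⟩ := hzF δ hδ
        have c1 : Commute z p := hzc p hp
        have c2 : Commute z q := hzc q hq
        have h5 : ∀ n : ℕ, z ^ n • δ = q ^ n • δ := by
          intro n
          induction n with
          | zero => rw [pow_zero, pow_zero]
          | succ n ih =>
            rw [pow_succ, mul_smul, hzq, ← mul_smul, (c2.pow_left n), mul_smul, ih, ← mul_smul,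
              ← pow_succ']
        rw [← mul_smul, (c1.pow_left 5), mul_smul, h5, h.pow_five hq, one_smul]
    have hzP : z ∈ P ω := h.mem_of_fix (k := 1) (by simpa using hz5) hzω
    have hz1 : z = 1 := by
      by_contra hc
      exact hβ (h.no_fix hzP hc hzβ)
    rw [hz, mul_inv_eq_one, mul_inv_eq_iff_eq_mul] at hz1
    exact hz1
  -- uniqueness
  have hE3 : ∀ t' : G, t' * t' = 1 → t' ≠ 1 → t' • ω = ω → t' • β = β → t' = t := by
    intro t' ht' ht'1 ht'ω ht'β
    have hinv' := h.inverts hev ht' ht'1 ht'ω ht'β hβ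
    have hyC : t' * t ∈ C0 := by
      rw [hC0mem]
      intro p hp
      have k6 : t' * p⁻¹ = p * t' := by
        have := hinv' p⁻¹ ((P ω).inv_mem hp)
        rwa [inv_inv] at this
      rw [mul_assoc, hinv p hp, ← mul_assoc, k6, mul_assoc]
    have hyβ : (t' * t) • β = β := by rw [mul_smul, htβ, ht'β]
    have h5 := hE2 _ hyC hyβ
    have h6 : t * t' = t' * t := by
      have h7 : t * (t' * t) * t = t' * t * t * t := by rw [h5]
      have e1 : t * (t' * t) * t = t * t' := by rw [← mul_assoc, mul_assoc, htt, mul_one]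
      have e2 : t' * t * t * t = t' * t := by rw [mul_assoc t' t t, htt, mul_one]
      rw [e1, e2] at h7; exact h7
    have h7 : (t' * t) * (t' * t) = 1 := by
      rw [← mul_assoc, mul_assoc t' t t', h6, ← mul_assoc, ht', one_mul, htt]
    by_contra hne
    have h8 : t' * t ≠ 1 := by
      intro hc
      apply hne
      rw [mul_eq_one_iff_eq_inv, htinv] at hc
      exact hc
    exact hβ (h.inv_cent hev h7 h8 ((hC0mem _).1 hyC) hyβ)
  -- the centralizer of t is transitive on the fixed points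
  set Fx : Set Ω := {γ : Ω | t • γ = γ} with hFx
  have hFx5 : Fx.ncard = 5 := by
    rw [hFix, Set.ncard_insert_of_notMem hωF (Set.toFinite F), hF4]
  have hE4 : ∀ γ ∈ Fx, ∀ δ ∈ Fx, ∃ g : G, g * t = t * g ∧ g • γ = δ := by
    intro γ hγ δ hδ
    obtain ⟨γ', hγ', hγγ'⟩ := Set.exists_ne_of_one_lt_ncard (s := Fx) (by rw [hFx5]; norm_num) γ
    obtain ⟨δ', hδ', hδδ'⟩ := Set.exists_ne_of_one_lt_ncard (s := Fx) (by rw [hFx5]; norm_num) δ
    obtain ⟨g, hg1, hg2⟩ := h2T γ γ' δ δ' hγγ' hδδ'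
    obtain ⟨u, hu1, hu2⟩ := h2T ω β δ δ' hβ hδδ'
    have key : ∀ s : G, s * s = 1 → s ≠ 1 → s • δ = δ → s • δ' = δ' → u⁻¹ * s * u = t := by
      intro s hs hs1 hsδ hsδ'
      apply hE3
      · have : u⁻¹ * s * u * (u⁻¹ * s * u) = u⁻¹ * (s * s) * u := by group
        rw [this, hs]; group
      · intro hc
        apply hs1
        have : s = u * (u⁻¹ * s * u) * u⁻¹ := by group
        rw [this, hc]; group
      · rw [mul_smul, mul_smul, hu1, hsδ, ← hu1, inv_smul_smul]
      · rw [mul_smul, mul_smul, hu2, hsδ', ← hu2, inv_smul_smul]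
    have k1 := key t htt ht1 hδ hδ'
    have k2 := key (g * t * g⁻¹) (by
      have : g * t * g⁻¹ * (g * t * g⁻¹) = g * (t * t) * g⁻¹ := by group
      rw [this, htt]; group) (by
      intro hc
      rw [conj_eq_one_iff] at hc
      exact ht1 hc) (by
      rw [← hg1, mul_smul, mul_smul, inv_smul_smul, show t • γ = γ from hγ]) (by
      rw [← hg2, mul_smul, mul_smul, inv_smul_smul, show t • γ' = γ' from hγ'])
    refine ⟨g, ?_, hg1⟩
    have k3 : u⁻¹ * (g * t * g⁻¹) * u = u⁻¹ * t * u := by rw [k2, k1]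
    have k4 : g * t * g⁻¹ = t := by
      have := mul_left_cancel (mul_right_cancel k3)
      exact this
    rwa [mul_inv_eq_iff_eq_mul] at k4
  set Ct : Subgroup G := centralizer {t} with hCt
  have hCtmem : ∀ g : G, g ∈ Ct ↔ g * t = t * g := fun g =>
    Subgroup.mem_centralizer_singleton_iff
  have horb : orbit Ct ω = Fx := by
    apply Set.Subset.antisymm
    · rintro s ⟨g, rfl⟩
      change t • (g : G) • ω = (g : G) • ω
      rw [← mul_smul, ← (hCtmem g).1 g.2, mul_smul, htω]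
    · intro δ hδ
      obtain ⟨g, hg, hgδ⟩ := hE4 ω htω δ hδ
      exact ⟨⟨g, (hCtmem g).2 hg⟩, hgδ⟩
  have h5 := MulAction.index_stabilizer Ct ω
  rw [horb, hFx5] at h5
  have h6 : 5 ∣ Nat.card Ct := by
    rw [← h5]; exact Subgroup.index_dvd_card _
  obtain ⟨y, hy⟩ := exists_prime_orderOf_dvd_card' (G := Ct) 5 h6
  have hy' : orderOf (y : G) = 5 := by rw [Subgroup.orderOf_coe, hy]
  obtain ⟨ω', hω'⟩ := h.exists_mem_of_orderOf hy'
  have hyt := (hCtmem y).1 y.2
  have hcomm : ∀ p ∈ P ω', t * p = p * t := by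
    intro p hp
    rw [← hω'] at hp
    obtain ⟨j, rfl⟩ := hp
    have : Commute t (y : G) := hyt.symm
    exact this.zpow_right j
  have e1 := h.inv_cent hev htt ht1 hcomm htω
  have e2 := h.inv_cent hev htt ht1 hcomm htβ
  exact hβ (e2.trans e1.symm)

theorem even_false (h : Cfg G Ω P)
    (hev : ∀ g : G, g * g = 1 → {β : Ω | g • β = β}.ncard % 4 = 1) : False := by
  by_cases h4 : ∀ ω, ¬ 4 ∣ Nat.card (centralizer (P ω : Set G))
  · exact h.case_two hev h4
  · push_neg at h4
    obtain ⟨ω, hω⟩ := h4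
    exact h.case_four hev hω

theorem false (h : Cfg G Ω P) : False := by
  classical
  haveI := h.fin
  haveI := h.finite_Ω
  letI := Fintype.ofFinite Ω
  have hcard : Fintype.card Ω = 21 := by rw [← Nat.card_eq_fintype_card]; exact h.card
  set s : G →* ℤˣ := Equiv.Perm.sign.comp (toPermHom G Ω) with hs
  have hidx : s.ker.index ∣ 2 := by
    rw [Subgroup.index_ker]
    have : Nat.card ℤˣ = 2 := by simp
    rw [← this]
    exact Subgroup.card_subgroup_dvd_card _
  have h5 : ¬ 5 ∣ s.ker.index := by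
    intro hd
    have := hd.trans hidx
    omega
  have hr := h.restrict s.ker (fun ω => h.le_of_normal s.ker h5 ω)
  apply hr.even_false
  intro g hg
  have hg' : (g : G) * (g : G) = 1 := congrArg Subtype.val hg
  set σ : Equiv.Perm Ω := toPermHom G Ω g with hσ
  have hσ2 : σ ^ 2 = 1 := by
    rw [hσ, ← map_pow, pow_two, hg', map_one]
  have hsg : Equiv.Perm.sign σ = 1 := g.2
  rw [Equiv.Perm.sign_of_pow_two_eq_one hσ2, hcard] at hsg
  have hfix : Fintype.card (Function.fixedPoints σ) = {β : Ω | g • β = β}.ncard := by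
    rw [← Nat.card_eq_fintype_card]
    rfl
  rw [hfix] at hsg
  have hle : {β : Ω | g • β = β}.ncard ≤ 21 := by
    rw [← h.card, ← Set.ncard_univ]
    exact Set.ncard_le_ncard (Set.subset_univ _) (Set.toFinite _)
  have heven : Even ((21 - {β : Ω | g • β = β}.ncard) / 2) := by
    by_contra hc
    rw [Nat.not_even_iff_odd] at hc
    rw [hc.neg_one_pow] at hsg
    exact absurd hsg (by decide)
  have hodd : {β : Ω | g • β = β}.ncard % 2 = 1 := by
    have h7 := Equiv.Perm.two_dvd_card_support hσ2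
    have h8 := Equiv.Perm.card_fixedPoints σ
    rw [Equiv.Perm.sum_cycleType, hcard, hfix] at h8
    have h9 : σ.support.card ≤ 21 := by rw [← hcard]; exact Finset.card_le_univ _
    omega
  obtain ⟨m, hm⟩ := heven
  omega

end Cfg

end H73.Syl21
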